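import Cfsg.Agent.Lib.U6S.Inv

/-! # The automorphisms of the model of `2·U₆(2)` (helper15; data: `tools/u6/data6.py`) -/

set_option autoImplicit false
set_option maxRecDepth 100000

namespace Cfsg.Lib.U6S

open Subgroup Cfsg.Lib.Calc Cfsg.Lib.Fi Cfsg.Lib.Fi.M22 Cfsg.Lib.Fischer Cfsg.Lib.ThreeTr Cfsg.Lib.F24T Cfsg.Lib.F223
open MulAut (conj)

theorem aut_z0 (α : MulAut CC) : α z0 = z0 := ((fu_cen _).1 fun y => by
  simpa using (z0_comm (α.symm y)).map α).resolve_left (mt (map_eq_one_iff α α.injective).1 z0_ne)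

theorem nsqY {y : CC} (m : y ∈ YY) : ¬ IsSquare y := fun s => by
  obtain ⟨l, rfl⟩ := ystd1 m
  obtain ⟨x, e⟩ := isSquare_conj (cj_isConj l _).symm s
  have e := congrArg Subtype.val e
  rw [pr_coe (by decide +kernel), pr_cons, pr_nil, mul_one, coe_mul] at e
  have f := has.cj' (t := tw [4, 1]) (a := 6) (b := 0) (by decide) (by decide +kernel)
  rw [e, ← conj_mul] at f
  exact fu_nsq ⟨_, C0_iff.2 ⟨Normal.conj_mem inferInstance _ (C0_I x.2) _, f ▸ (Commute.refl _).mul_left (.refl _)⟩⟩ (Subtype.ext f)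

theorem fu_aut (α : MulAut CC) : ∀ y ∈ YY, α y ∈ YY := fun y m => by
  have n : ¬ Q (α y) := fun q => nsqY m (by simpa using (q.map α.symm.toMonoidHom).isSquare)
  rcases fu_inv (α y) (by rw [← map_mul, t0Y.prim.sq m, map_one]) with f | f | f | f | f
  · exact absurd ((map_eq_one_iff α α.injective).1 f ▸ IsSquare.one) (nsqY m)
  · obtain ⟨c, -, k⟩ := t0Y.prim.nbr m
    exact absurd (α.injective (f.trans (aut_z0 α).symm) ▸ z0_comm c) k
  · exact f
  · exact absurd f n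
  · refine absurd (Q.isConj ?_ f.1.symm) n
    simpa [aut_z0] using (fu_q1 y m).map α.toMonoidHom

/-- induced by `Γ` -/
def Rh (α : MulAut CC) : Prop := ∃ (γ : Γ) (c : Commute (τ 0) γ), α = ρ c

/-- the listed points are fixed -/
def Fx (α : MulAut CC) (l : List ℕ) : Prop := ∀ a ∈ l, ok0 a ∧ α (tt a) = tt a

variable {α : MulAut CC} {l : List ℕ} {a b p : ℕ}

theorem Rh.of {γ : Γ} (c : Commute (τ 0) γ) (h : Rh (ρ c.inv_right * α)) : Rh α := let ⟨_, c', e⟩ := h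
  ⟨_, c.mul_right c', by rw [ρ_mul c c', ← e, ← mul_assoc, ← ρ_mul, (ρ_eq_one _).2 (.inl (mul_inv_cancel γ)), one_mul]⟩

theorem Fx.cons (h : Fx α l) (o : ok0 p) (e : (α (tt p) : Γ) = τ p) : Fx α (p :: l) :=
  List.forall_mem_cons.2 ⟨⟨o, Subtype.ext (e.trans (tt_coe o).symm)⟩, h⟩

theorem Fx.pt (h : Fx α l) (m : a ∈ l) (o : b ∈ l) : Fx α (F.pt a b :: l) := List.forall_mem_cons.2
  ⟨⟨ok0_pt (h a m).1 (h b o).1, by rw [← pst.cj a b (h a m).1 (h b o).1, map_mul, map_mul, (h a m).2, (h b o).2]⟩, h⟩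

theorem Fx.comm (h : Fx α l) (m : a ∈ l) (o : ok0 p) : Commute (τ a) (α (tt p)) ↔ F.pt a p = p := by
  rw [← comm_iff (h a m).1.1 o.1, ← tt_coe (h a m).1, ← tt_coe o]
  nth_rw 1 [← (h a m).2]
  exact ⟨fun c => congrArg Subtype.val (α.injective (by rw [map_mul, map_mul]; exact Subtype.ext c) : tt a * tt p = tt p * tt a),
    fun c => congrArg Subtype.val ((show Commute (tt a) (tt p) from Subtype.ext c).map α)⟩

theorem Fx.ne (h : Fx α l) (o : ok0 p) (m : a ∈ 0 :: l) (n : a ≠ p) : (α (tt p) : Γ) ≠ τ a := fun e => by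
  rcases List.mem_cons.1 m with rfl | m
  · exact (fu_aut α _ (tt_mem o)).2.1 e
  · exact n (τ_inj (h a m).1.1 o.1 (by
      rw [← tt_coe o, ← tt_coe (h a m).1, α.injective ((h a m).2.trans (Subtype.ext ((tt_coe (h a m).1).trans e.symm)))]))

theorem step (l : List ℕ) (p : ℕ) (ks : List (List ℕ)) (qs : List ℕ) (C : ℕ) (h : ok0 p ∧ (∀ a ∈ l, a < 3510) ∧
    (∀ k ∈ ks, ∀ a ∈ 0 :: l, Nat.beq (F.ext.pw (tw k) true a) a = true) ∧ F.ext.coverOK (ks.map tw) 1 qs C = true)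
    (m : ∀ α, Fx α l → (α (tt p) : Γ) ∈ ms 3510 τ C) (H : ∀ α, Fx α l → ∀ q ∈ qs, (α (tt p) : Γ) = τ q → Rh α) (f : Fx α l) : Rh α := by
  obtain ⟨q, hq, -, k, hk, e⟩ := has.cover (H := centralizer (τ '' {a | a ∈ 0 :: l})) (List.forall_mem_map.2 fun k o => by
    rintro _ ⟨a, m, rfl⟩
    exact (has.comm_iff _ (List.forall_mem_cons.2 ⟨by decide, h.2.1⟩ a m)).2 (h.2.2.1 k o a m)) h.2.2.2 (m α f)
  have c : Commute (τ 0) k := hk _ ⟨0, by simp, rfl⟩
  refine Rh.of c (H _ (fun a m => ⟨(f a m).1, Subtype.ext ?_⟩) q hq ?_) <;> rw [MulAut.mul_apply, ρ_coe]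
  · rw [(f a m).2, tt_coe (f a m).1, mul_assoc, inv_inv, hk _ ⟨a, by simp [m], rfl⟩, inv_mul_cancel_left]
  · rw [← e]; group

theorem Fx.adj (f : Fx α l) (pos : List ℕ) (h : ok0 p ∧ ∀ a ∈ pos, a ∈ l ∧ F.pt a p = p) : (α (tt p) : Γ) ∈ ms 3510 τ (F.ext.adjL (0 :: pos)) :=
  have m := fu_aut α _ (tt_mem h.1)
  (has.mem_adjL _).2 ⟨m.1, List.forall_mem_cons.2 ⟨m.2.2.symm, fun a o => ((f.comm (h.2 a o).1 h.1).2 (h.2 a o).2).symm⟩⟩

theorem step' (l pos : List ℕ) (p : ℕ) (ks : List (List ℕ)) (qs : List ℕ) (h : (ok0 p ∧ (∀ a ∈ l, a < 3510) ∧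
    (∀ k ∈ ks, ∀ a ∈ 0 :: l, Nat.beq (F.ext.pw (tw k) true a) a = true) ∧ F.ext.coverOK (ks.map tw) 1 (p :: qs) (F.ext.adjL (0 :: pos)) = true) ∧
    (ok0 p ∧ ∀ a ∈ pos, a ∈ l ∧ F.pt a p = p) ∧ ∀ q ∈ qs, q < 3510 ∧ ∃ n ∈ l, F.pt n q = q ∧ F.pt n p ≠ p)
    (H : ∀ α, Fx α (p :: l) → Rh α) (f : Fx α l) : Rh α :=
  step l p ks _ _ h.1 (fun _ f => f.adj pos h.2.1) (fun α f q o e => (List.mem_cons.1 o).elim (fun g => H α (f.cons h.1.1 (g ▸ e))) fun o =>
    let ⟨u, n, v, w, x⟩ := h.2.2 q o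
    absurd ((f.comm v h.1.1).1 (e ▸ ps.commute (f n v).1.1 u w)) x) f

theorem rh10 (f : Fx α [3399, 2139, 106, 198, 62, 66, 2609, 1062, 172, 43, 40, 6]) : Rh α := by
  refine ⟨1, .one_right _, ((ρ_eq_one _).2 (.inl rfl)).symm ▸ MulEquiv.toMonoidHom_injective (MonoidHom.eq_of_eqOn_dense topY fun y m => ?_)⟩
  have k : ∀ a ∈ [3399, 198, 62, 66, 2609, 1062, 172, 43, 40, 6], τ a ∈ (α.toMonoidHom.eqLocus (.id _)).map C0.subtype := fun a o =>
    have := f a ((by decide : [3399, 198, 62, 66, 2609, 1062, 172, 43, 40, 6] ⊆ _) o); ⟨tt a, this.2, tt_coe this.1⟩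
  obtain ⟨q, hq, -, g, hg, e⟩ := has.cover (ks := [3399, 198, 62, 66, 2609, 1062, 172, 43, 40, 6].map W.l) (List.forall_mem_map.2 k) (r := 3)
    (qs := [0, 3399, 198, 62, 66, 2609, 1062, 172, 43, 40, 6]) (C := F.ext.adjL [0]) (by decide +kernel) (d := y)
    ((has.mem_adjL _).2 ⟨m.1, List.forall_mem_singleton.2 m.2.2.symm⟩)
  rcases List.mem_cons.1 hq with rfl | hq
  · exact absurd (e.symm.trans (C0_comm (map_subtype_le _ hg)).symm.mul_inv_cancel) m.2.1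
  · obtain ⟨x, o, r⟩ := mul_mem (mul_mem hg (k q hq)) (inv_mem hg)
    exact (Subtype.ext (r.trans e) : x = y) ▸ o

theorem rh6 (f : Fx α [2609, 1062, 172, 43, 40, 6]) : Rh α :=
  step' _ [6, 40] 66 [[43], [47], [59], [155], [172]]
    [0, 6, 40, 43, 47, 59, 154, 155, 172, 424, 427, 434, 472, 637, 1062, 1710, 1734, 1779, 2609, 2692, 3399, 3400] (by decide +kernel)
    (fun _ => step' _ [6, 43, 66] 62 [[6], [40], [154], [3399], [3400]] [0, 6, 40, 154, 3399, 3400] (by decide +kernel)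
      fun _ => step' _ [40, 43, 66, 62] 198 [[6]] [0, 6] (by decide +kernel) fun _ f => step' _ [6, 40, 43, 66, 2139] 3399 [] [0] (by decide +kernel)
        (fun _ => rh10) (by
          have := (f.pt (a := 62) (b := 172) (by decide) (by decide))
          rw [show F.pt 62 172 = 106 by decide +kernel] at this
          have := (this.pt (a := 198) (b := 106) (by decide) (by decide))
          rwa [show F.pt 198 106 = 2139 by decide +kernel] at this)) f

theorem hex (f : Fx α [43, 40, 6]) : ∃ a ∈ [172, 1062, 2609], ∃ b ∈ [172, 1062, 2609], (α (tt 172) : Γ) = τ a ∧ (α (tt 1062) : Γ) = τ b := by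
  have k : ∀ p ∈ [172, 1062, 2609], ∃ a ∈ [47, 59, 154, 155, 172, 424, 427, 434, 472, 637, 1062, 1710, 1734, 1779, 2609, 2692, 3399, 3400],
      (α (tt p) : Γ) = τ a := fun p o => by
    have h := (by decide +kernel : ∀ p ∈ [172, 1062, 2609], (ok0 p ∧ ∀ a ∈ [6, 40, 43], a ∈ [43, 40, 6] ∧ F.pt a p = p) ∧
      ∀ a ∈ [0, 43, 40, 6], a ≠ p) p o
    obtain ⟨q, hq, -, g, hg, e⟩ := has.cover (H := ⊥) (ks := []) (by simp) (r := 0) (qs := [0, 43, 40, 6] ++
      [47, 59, 154, 155, 172, 424, 427, 434, 472, 637, 1062, 1710, 1734, 1779, 2609, 2692, 3399, 3400]) (by decide +kernel) (f.adj _ h.1)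
    rw [mem_bot.1 hg, one_mul, inv_one, mul_one] at e
    exact (List.mem_append.1 hq).elim (fun m => absurd e.symm (f.ne h.1.1 m (h.2 q m))) fun m => ⟨q, m, e.symm⟩
  obtain ⟨a, p, e1⟩ := k 172 (by decide)
  obtain ⟨b, q, e2⟩ := k 1062 (by decide)
  obtain ⟨c, r, e3⟩ := k 2609 (by decide)
  have e := congrArg (fun x => (α x : Γ)) (tt_eq (u := [172, 1062, 2609]) (v := [6, 40, 43]) (by decide +kernel))
  simp only [pr_cons, pr_nil, map_mul, mul_one, coe_mul, e1, e2, e3, (f 6 (by decide)).2, (f 40 (by decide)).2, (f 43 (by decide)).2,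
    tt_coe (f 6 (by decide)).1, tt_coe (f 40 (by decide)).1, tt_coe (f 43 (by decide)).1] at e
  obtain ⟨s, t⟩ := ((by decide +kernel : ∀ c ∈ [47, 59, 154, 155, 172, 424, 427, 434, 472, 637, 1062, 1710, 1734, 1779, 2609, 2692, 3399, 3400],
    ∀ b ∈ [47, 59, 154, 155, 172, 424, 427, 434, 472, 637, 1062, 1710, 1734, 1779, 2609, 2692, 3399, 3400],
    ∀ a ∈ [47, 59, 154, 155, 172, 424, 427, 434, 472, 637, 1062, 1710, 1734, 1779, 2609, 2692, 3399, 3400],
      F.ext.neOK (tw [a, b, c]) (tw [6, 40, 43]) 1901 = true ∨ a ∈ [172, 1062, 2609] ∧ b ∈ [172, 1062, 2609]) c r b q a p).resolve_left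
    fun n => has.ne n (by rw [ev_tw, ev_tw]; simpa using e)
  exact ⟨a, s, b, t, e1, e2⟩

theorem rh3 (f : Fx α [43, 40, 6]) : Rh α := by
  refine step _ 172 [[28, 544, 64, 544, 1366, 1402, 88, 2245, 1366, 1402], [28, 544, 64, 544, 1366, 1402, 88, 2245, 1366, 1402]] [172]
    (bitsM [172, 1062, 2609]) (by decide +kernel) (fun α f => let ⟨a, m, _, _, e, _⟩ := hex f
      (has.mem_bitsM (by decide)).2 ⟨a, m, e.symm⟩) (fun α f q o e => ?_) f
  refine step _ 1062 [[1412, 1435, 697, 709, 1250, 1263, 697, 709, 1412, 1435, 2233, 1191, 944, 1604, 13, 3510, 13]] [1062]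
    (bitsM [1062, 2609]) (by decide +kernel) (fun α f => let ⟨_, _, b, m, _, e⟩ := hex fun a m => f a (List.mem_cons_of_mem _ m)
      (has.mem_bitsM (by decide)).2 ⟨b, (List.mem_cons.1 m).resolve_left fun g => f.ne (a := 172) (by decide +kernel) (by decide) (by decide) (g ▸ e),
        e.symm⟩) (fun α f q o e => ?_) (f.cons (by decide +kernel) (List.mem_singleton.1 o ▸ e))
  have f := f.cons (p := 1062) (by decide +kernel) (List.mem_singleton.1 o ▸ e)
  refine rh6 (List.forall_mem_cons.2 ⟨⟨by decide +kernel, ?_⟩, f⟩)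
  have e := tt_eq (u := [2609]) (v := [1062, 172, 43, 40, 6]) (by decide +kernel)
  simp only [pr_cons, pr_nil, mul_one] at e
  rw [e]
  simp only [map_mul, (f 6 (by decide)).2, (f 40 (by decide)).2, (f 43 (by decide)).2, (f 172 (by decide)).2, (f 1062 (by decide)).2]

theorem aut (α : MulAut CC) : ∃ (γ : Γ) (c : Commute (τ 0) γ), α = ρ c := by
  have d : ∀ {a b : CC}, b ∈ Dx YY a → α b ∈ Dx YY (α a) := fun h => ⟨fu_aut α _ h.1, α.injective.ne h.2.1, h.2.2.map α⟩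
  have t := tt_dx2 (a := 6) (b := 40) (c := 43) (by decide +kernel)
  obtain ⟨l, q, m, e1, e2, e3⟩ := tri (fu_aut α _ (tt_mem (a := 6) (by decide +kernel))) (d (tt_dx (b := 40) (by decide +kernel)))
    ⟨d t.1, (d ⟨t.1.1, t.2⟩).2⟩
  refine Rh.of (C0_comm l.2) ?_
  have k : ∀ {x y}, l * y * l⁻¹ = α x → (ρ (C0_comm l.2).inv_right * α) x = y := fun e => Subtype.ext (by
    rw [MulAut.mul_apply, ρ_coe, ← e]; simp [mul_assoc])
  have f : Fx (ρ (C0_comm l.2).inv_right * α) [40, 6] :=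
    List.forall_mem_cons.2 ⟨⟨by decide +kernel, k e2⟩, List.forall_mem_singleton.2 ⟨by decide +kernel, k e1⟩⟩
  have e := k e3
  generalize ρ (C0_comm l.2).inv_right * α = β at *
  refine rh3 (List.forall_mem_cons.2 ⟨⟨by decide +kernel, e.trans (congrArg tt ?_)⟩, f⟩)
  by_contra n
  obtain ⟨o, s⟩ := ((by decide +kernel : ∀ q ∈ [154, 3399, 3400, 43], q = 43 ∨ ok0 q ∧
    F.ext.coverOK [] 0 [] (Nat.xor (F.ext.adjL [0, 6, 40]) (F.ext.adjL [q, 0, 6, 40])) = true) q m).resolve_left n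
  obtain ⟨a, u, v, w⟩ := f.adj (p := 66) [6, 40] (by decide +kernel)
  obtain ⟨_, r, -⟩ := has.cover (H := ⊥) (ks := []) (by simp) s (d := τ a) ⟨a, u, by
    change Nat.testBit (_ ^^^ (_ &&& F.ext.adjL [0, 6, 40])) a = true
    rw [Nat.testBit_xor, Nat.testBit_and, v, Bool.and_true, Bool.true_xor, Bool.not_eq_true', ← Bool.not_eq_true, has.adj_iff _ u, w,
      ← tt_coe o, ← e]
    exact fun c => (by decide +kernel : F.pt 66 43 ≠ 43) ((comm_iff (by decide) (by decide)).1 (by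
      rw [← tt_coe (a := 66) (by decide +kernel), ← tt_coe (a := 43) (by decide +kernel)]
      exact congrArg Subtype.val (β.injective (by rw [map_mul, map_mul]; exact Subtype.ext c) : tt 66 * tt 43 = tt 43 * tt 66))), rfl⟩
  exact absurd r List.not_mem_nil

theorem fu_two (α β : MulAut CC) (a : ¬ In α) (b : ¬ In β) : In (α * β) := by
  obtain ⟨γ, c, rfl⟩ := aut α
  obtain ⟨γ', c', rfl⟩ := aut β
  rw [in_iff] at a b
  rw [← ρ_mul, in_iff, mul_mem_iff_of_index_two idx]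
  exact iff_of_false a b

end Cfsg.Lib.U6S
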