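import Cfsg.Agent.Lib.U6S.Cert

/-! # The model of `2·U₆(2)`: order, centre, centralisers (helper15) -/

set_option autoImplicit false
set_option maxRecDepth 100000

namespace Cfsg.Lib.U6S

open Subgroup Cfsg.Lib.Calc Cfsg.Lib.Fi Cfsg.Lib.Fi.M22 Cfsg.Lib.Fischer Cfsg.Lib.ThreeTr Cfsg.Lib.F24T Cfsg.Lib.F223
open MulAut (conj)

variable {γ x : Γ}

theorem cen0 (c : Commute (τ 0) γ) (h : ∀ y ∈ Y0, Commute y γ) : γ = 1 ∨ γ = τ 0 := by
  simpa using F24T.k3 _ c0_ok [0] rfl (by decide +kernel) (π := γ) (List.forall_mem_cons.2 ⟨by simpa using c, fun w m =>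
    commute_closure (fun y o => (h y o).symm) (pr_mem ((by decide +kernel : ∀ w ∈ [[6], [16], [40], [88], [154], [43], [92], [472]],
      ∀ a ∈ w, ok0 a) w m)) |>.symm⟩)

theorem z0_sq : z0 * z0 = 1 := Subtype.ext (has.sq 0)

theorem z0_ne : z0 ≠ 1 := fun e => TS.ne_one t1.prim.ts (has.mem (a := 0) (by decide)) (congrArg Subtype.val e)

theorem z0_comm (x : CC) : Commute z0 x := Subtype.ext (C0_comm x.2)

theorem fu_cen (x : CC) : (∀ y, Commute x y) ↔ x = 1 ∨ x = z0 :=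
  ⟨fun h => (cen0 (C0_comm x.2) fun y m => congrArg Subtype.val (h ⟨y, subset_closure m⟩).symm).imp Subtype.ext Subtype.ext, by
    rintro (rfl | rfl); exacts [Commute.one_left, z0_comm]⟩

/-- the model is a double cover of `U₆(2)` -/
theorem exists_cov : ∃ π : CC →* UU, Fischer.Cov π z0 := by
  obtain ⟨e⟩ : Nonempty (CC ⧸ center CC ≃* UU) := t0.ty.nonempty (by decide)
  exact ⟨e.toMonoidHom.comp (QuotientGroup.mk' _), e.surjective.comp (QuotientGroup.mk'_surjective _), fun x =>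
    (map_eq_one_iff e e.injective).trans ((QuotientGroup.eq_one_iff _).trans (mem_center_iff.trans
      ((forall_congr' fun _ => eq_comm).trans (fu_cen x)))), z0_sq, z0_ne, z0_comm⟩

theorem card_CC : Nat.card CC = 2 * 9196830720 := let ⟨_, C⟩ := exists_cov; by rw [C.card, uu_card]

theorem C0_iff : x ∈ C0 ↔ x ∈ I ∧ Commute (τ 0) x := by
  refine ⟨fun h => ⟨C0_I h, C0_comm h⟩, fun h => ?_⟩
  have c := ext.card_half (Y := [.l 0]) (m := 2 * 9196830720) (o := tw [13, 3510, 13]) (by decide +kernel)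
    (has.cert (ls := aut_lv.tail) (by decide +kernel)).card (by decide +kernel) (by decide +kernel)
  rw [← card_map_of_injective ext.inj, ext.map_CZ (by decide +kernel), CZ_one] at c
  exact (eq_of_le_of_card_ge (H := C0) (fun x m => mem_inf.2 ⟨mem_centralizer_singleton_iff.2 (C0_comm m).symm, C0_I m⟩)
    (c.trans card_CC.symm).le).ge ⟨mem_centralizer_singleton_iff.2 h.2.symm, h.1⟩

/-- nine points that generate the group of the standard plane together with the centre -/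
def Z9 : List ℕ := [43, 47, 59, 154, 155, 172, 427, 434, 1062]

theorem k4 (c : Commute (τ 0) γ) (h : ∀ a ∈ Z9, Commute (τ a) γ) : γ ∈ I ∧ γ * γ = 1 := by
  have := cz_of ((0 :: Z9).map fun a => [a]) k4_ok (π := γ) (List.forall_mem_map.2 (List.forall_mem_cons.2
    ⟨by simpa using c, fun a ha => by simpa using h a ha⟩))
  have k : ∀ a ∈ 0 :: Z9, a < 3510 ∧ ∀ b ∈ 0 :: Z9, F.pt a b = b := by decide +kernel
  have e : genW τ (levGens k4_lv) ≤ closure (τ '' {a | a ∈ 0 :: Z9}) := genW_le.2 fun t ht => by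
    obtain ⟨a, ha, rfl⟩ := List.mem_map.1 (show t ∈ (0 :: Z9).map W.l from ht)
    exact subset_closure ⟨a, ha, rfl⟩
  refine ⟨(closure_le _).2 (by rintro _ ⟨a, ha, rfl⟩; exact τ_mem (k a ha).1) (e this), ?_⟩
  have E := elab_closure (S := τ '' {a | a ∈ 0 :: Z9}) (by rintro _ ⟨a, -, rfl⟩; exact has.sq a)
    (by rintro _ ⟨a, ha, rfl⟩ _ ⟨b, hb, rfl⟩; exact ps.commute (k a ha).1 (k b hb).1 ((k a ha).2 b hb))
  exact pow_two γ ▸ E.2 γ (e this)

theorem mem_four {G : Type*} [Group G] {a b g : G} (ha : a * a = 1) (hb : b * b = 1) (c : Commute a b) (hg : g ∈ closure {a, b}) :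
    g = 1 ∨ g = a ∨ g = b ∨ g = a * b := by
  have h1 := sq_cancel_left ha
  have h2 : b * (a * b) = a := by rw [← mul_assoc, ← c.eq, mul_assoc, hb, mul_one]
  have k : ∀ x ∈ ({a, b} : Set G), ∀ y, y = 1 ∨ y = a ∨ y = b ∨ y = a * b → x * y = 1 ∨ x * y = a ∨ x * y = b ∨ x * y = a * b := by
    rintro x (rfl | rfl) y (rfl | rfl | rfl | rfl) <;> simp [h1, h2, ha, hb, c.symm.eq]
  induction hg using closure_induction_left with
  | one => simp
  | mul_left x hx y _ ih => exact k x hx y ih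
  | inv_mul_cancel x hx y _ ih =>
    have : x⁻¹ = x := by rcases hx with rfl | rfl <;> exact inv_eq_of_mul_eq_one_right ‹_›
    exact this.symm ▸ k x hx y ih

theorem k3 {w : List ℕ} (m : w ∈ W3) (c : Commute (τ 0) γ) (h : ∀ x ∈ C0, Commute x (pr τ w) → Commute x γ) :
    γ = 1 ∨ γ = τ 0 ∨ γ = pr τ w ∨ γ = τ 0 * pr τ w := by
  have k : ∀ {ls : List Lev} (Ws : List (List ℕ)), F.ext.certOK ls (List.map tw ([0] :: Ws)) = true → levGens ls = [.l 0, tw w] →
      (∀ a ∈ w, ok0 a) ∧ F.ext.eqOK (tw (w ++ w)) (tw []) = true ∧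
        (∀ v ∈ Ws, (∀ a ∈ v, ok0 a) ∧ F.ext.eqOK (tw (v ++ w)) (tw (w ++ v)) = true) →
      γ = 1 ∨ γ = τ 0 ∨ γ = pr τ w ∨ γ = τ 0 * pr τ w := fun Ws e g ⟨p, q, r⟩ => by
    have := cz_of _ e (π := γ) (List.forall_mem_cons.2 ⟨by simpa using c, fun v o => h _ (pr_mem (r v o).1) (by
      rw [commute_iff_eq, ← pr_append, ← pr_append, pr_eq (r v o).2])⟩)
    rw [g] at this
    refine mem_four (has.sq 0) (by rw [← pr_append, pr_eq q, pr_nil]) (C0_comm (pr_mem p)) ((genW_le (H := closure {τ 0, pr τ w})).2 ?_ this)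
    simp only [List.mem_cons, List.not_mem_nil, or_false, forall_eq_or_imp, forall_eq, ev_tw]
    exact ⟨subset_closure (.inl rfl), subset_closure (.inr rfl)⟩
  simp only [W3, List.mem_cons, List.not_mem_nil, or_false] at m
  rcases m with rfl | rfl | rfl
  exacts [k _ k3a_ok rfl (by decide +kernel), k _ k3b_ok rfl (by decide +kernel), k _ k3c_ok rfl (by decide +kernel)]

theorem ρ_eq_one (c : Commute (τ 0) γ) : ρ c = 1 ↔ γ = 1 ∨ γ = τ 0 :=
  ⟨fun e => cen0 c fun y m => (mul_inv_eq_iff_eq_mul.1 ((ρ_coe c ⟨y, subset_closure m⟩).symm.trans (by rw [e]; rfl))).symm, by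
    rintro (rfl | rfl) <;> refine MulEquiv.ext fun x => Subtype.ext ?_
    exacts [by simp [ρ_coe], (C0_comm x.2).mul_inv_cancel]⟩

theorem ρ_mul {γ' : Γ} (c : Commute (τ 0) γ) (c' : Commute (τ 0) γ') : ρ (c.mul_right c') = ρ c * ρ c' :=
  MulEquiv.ext fun x => Subtype.ext (by simp [ρ_coe, mul_assoc])

theorem ρ_conj (x : CC) : ρ (C0_comm x.2) = conj x := MulEquiv.ext fun _ => rfl

theorem in_iff (c : Commute (τ 0) γ) : In (ρ c) ↔ γ ∈ I := by
  refine ⟨fun ⟨x, e⟩ => (mul_mem_cancel_left (C0_I x⁻¹.2)).1 ?_, fun m => ⟨⟨γ, C0_iff.2 ⟨m, c⟩⟩, MulEquiv.ext fun _ => rfl⟩⟩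
  rcases (ρ_eq_one ((C0_comm x⁻¹.2).mul_right c)).1 (by rw [ρ_mul (C0_comm x⁻¹.2) c, e, ρ_conj, ← map_mul, inv_mul_cancel, map_one]) with h | h <;>
    rw [h]
  exacts [one_mem _, τ_mem (by decide)]

end Cfsg.Lib.U6S
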