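import Cfsg.Agent.Lib.F24T.Gam
import Cfsg.Agent.Lib.F24T.Abs
import Cfsg.Agent.Lib.F223.G

/-! # A standard subgroup `2·U₆(2)`: the facts on the double cover, and the model inside `Aut Fi₂₂` (helper15, `docs/U6S.md`) -/

set_option autoImplicit false
set_option maxRecDepth 100000

namespace Cfsg.Lib.U6S

open Subgroup Cfsg.Lib.Calc Cfsg.Lib.Fi Cfsg.Lib.Fi.M22 Cfsg.Lib.Fischer Cfsg.Lib.ThreeTr Cfsg.Lib.F24T
open MulAut (conj)

section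

variable {J G : Type*} [Group J] [Group G]

/-- `x` is the square of a product of involutions commuting with `x` -/
def Q (x : J) : Prop := ∃ r ∈ closure {i | i * i = 1 ∧ Commute x i}, r * r = x

theorem Q.map {x : J} (h : Q x) (f : J →* G) : Q (f x) :=
  let ⟨r, m, e⟩ := h
  ⟨f r, ((closure_le _).2 fun i k => Subgroup.subset_closure (show f i * f i = 1 ∧ _ from ⟨by rw [← map_mul, k.1, map_one], k.2.map f⟩) :
    Subgroup.closure _ ≤ (Subgroup.closure _).comap f) m, by rw [← map_mul, e]⟩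

theorem Q.isConj {x y : J} (h : Q x) (e : IsConj x y) : Q y := let ⟨g, e⟩ := isConj_iff.1 e; e ▸ h.map (conj g).toMonoidHom

theorem Q.isSquare {x : J} (h : Q x) : IsSquare x := let ⟨r, _, e⟩ := h; ⟨r, e.symm⟩

/-- an inner automorphism -/
def In (α : MulAut J) : Prop := ∃ x, α = conj x

/-- a product of three points that are not on a line -/
def Tr (z : J) (Y : Set J) (x : J) : Prop := IsConj x (z * x) ∧ ∃ a ∈ Y, ∃ b ∈ Dx Y a, ∃ c ∈ Dx (Dx Y a) b, x = a * b * c ∧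
  ∃ k, Commute k x ∧ k * a * k⁻¹ ∈ Dx Y a ∧ IsConj x (x * (a * (k * a * k⁻¹)))

/-- the data attached to an outer involution: a four-group of products `y · α y`, permuted by a fixed element -/
def OD (Y : Set J) (α : MulAut J) : Prop := ∃ y ∈ Y, ∃ k, α k = k ∧ α y ∈ Dx Y y ∧
  y * α y * (k * (y * α y) * k⁻¹) = k * (k * (y * α y) * k⁻¹) * k⁻¹

/-- the facts on `J = 2·U₆(2)` with centre `⟨z⟩` and the class `Y` of 3-transpositions -/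
structure Fu (z : J) (Y : Set J) : Prop where
  t0 : T0 Y
  top : closure Y = ⊤
  z2 : z * z = 1
  z1 : z ≠ 1
  cen : ∀ x, (∀ y, Commute x y) ↔ x = 1 ∨ x = z
  nsq : ∀ x, x * x ≠ z
  aut : ∀ α : MulAut J, ∀ y ∈ Y, α y ∈ Y
  two : ∀ α β : MulAut J, ¬ In α → ¬ In β → In (α * β)
  inv : ∀ x, x * x = 1 → x = 1 ∨ x = z ∨ x ∈ Y ∨ Q x ∨ Tr z Y x
  q1 : ∀ y ∈ Y, Q (z * y)
  q2 : ∀ a ∈ Y, ∀ b ∈ Dx Y a, Q (a * b) ∧ Q (z * (a * b))
  par : ∀ a ∈ Y, ∀ B : Subgroup J, a ∈ B → (∀ b ∈ Dx Y a, ∀ c ∈ Dx Y a, b * c ∈ B) → z ∈ B ∧ ∀ b ∈ Dx Y a, b ∈ B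
  k3 : ∀ ξ, ξ * ξ = 1 → ξ ≠ 1 → ξ ≠ z → ∀ α : MulAut J, (∀ c, Commute c ξ → α c = c) → α = 1 ∨ α = conj ξ
  fix : ∀ ξ, ξ * ξ = 1 → ξ ≠ 1 → ξ ≠ z → ∀ N : Subgroup J, (∀ c, Commute c ξ → ∀ n ∈ N, c * n * c⁻¹ ∈ N) →
    (∀ n ∈ N, n * n = 1 → n = 1 ∨ n = ξ ∨ n = z * ξ) → ∀ α : MulAut J, (∀ y ∈ Y, Commute y ξ → y * α y ∈ N) → In α ∧ α * α = 1
  out : ∀ α : MulAut J, α * α = 1 → ¬ In α → OD Y α ∧ ∀ x, α x * x ≠ z

end

/-- the points commuting with the point `0` -/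
def Y0 : Set Γ := Dx DG (τ 0)

/-- the centraliser of the point `0` in `Fi₂₂` -/
noncomputable def C0 : Subgroup Γ := closure Y0

/-- the model of `2·U₆(2)` -/
abbrev CC : Type := C0

/-- its class of 3-transpositions -/
def YY : Set CC := {x | (x : Γ) ∈ Y0}

theorem t1 : T1 DG := by
  have := ext.has0.fin
  have := Fi22.simple
  obtain ⟨_, h, T, -⟩ := fi22_has
  have e : ι '' D22 = DG := Set.ext fun x => ⟨by
    rintro ⟨d, m, rfl⟩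
    obtain ⟨a, p, rfl⟩ := ext.has0.ex m
    exact ext.tau a p ▸ has.mem p, fun m => let ⟨a, p, e⟩ := has.ex m; ⟨_, ext.has0.mem p, (ext.tau a p).trans e⟩⟩
  exact e ▸ (T.prim.fiso_hom ι ext.inj.injOn fun _ m => (map_ne_one_iff _ ext.inj).2 (TS.ne_one T.prim.ts m)).t1 T

theorem t0 : T0 Y0 := t1.loc _ (has.mem (a := 0) (by decide))

theorem t0Y : T0 YY := t0.prim.fiso_sub.symm.t0 t0

theorem topY : closure YY = ⊤ := t0.prim.group.2.2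

theorem τ_Y0 {a : ℕ} (h : a < 3510) : τ a ∈ Y0 ↔ ok0 a :=
  ⟨fun k => ⟨h, fun e => k.2.1 (congrArg τ e), (comm_iff (by decide) h).1 k.2.2⟩,
    fun k => ⟨has.mem h, fun e => k.2.1 (τ_inj h (by decide) e), (comm_iff (by decide) h).2 k.2.2⟩⟩

theorem mem_Y0 {y : Γ} : y ∈ Y0 ↔ ∃ a, ok0 a ∧ τ a = y :=
  ⟨fun m => let ⟨a, p, e⟩ := has.ex m.1; ⟨a, (τ_Y0 p).1 (e ▸ m), e⟩, fun ⟨_, p, e⟩ => e ▸ (τ_Y0 p.1).2 p⟩

theorem pr_mem {l : List ℕ} (h : ∀ a ∈ l, ok0 a) : pr τ l ∈ C0 :=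
  list_prod_mem (List.forall_mem_map.2 fun a m => subset_closure ((τ_Y0 (h a m).1).2 (h a m)))

theorem C0_comm {x : Γ} (h : x ∈ C0) : Commute (τ 0) x := commute_closure (fun _ m => m.2.2) h

theorem C0_I {x : Γ} (h : x ∈ C0) : x ∈ I :=
  ((closure_le _).2 fun _ m => let ⟨_, p, e⟩ := mem_Y0.1 m; e ▸ τ_mem p.1 : C0 ≤ I) h

theorem τ0_mem : τ 0 ∈ C0 := by
  have := pr_mem (l := [6, 40, 154, 3399, 3400]) (by decide +kernel)
  rwa [pr_eq (v := [0]) (by decide +kernel), pr_cons, pr_nil, mul_one] at this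

theorem nrm_Y0 {γ : Γ} (c : Commute (τ 0) γ) : Nrm Y0 γ :=
  Nrm.dx (nrm_of_mem (fun _ => has.conj_mem γ) fun _ => has.conj_mem γ⁻¹) c.symm.mul_inv_cancel

theorem conj_C0 {γ x : Γ} (c : Commute (τ 0) γ) (h : x ∈ C0) : γ * x * γ⁻¹ ∈ C0 :=
  ((closure_le _).2 fun _ m => subset_closure ((nrm_Y0 c).mem m) : C0 ≤ C0.comap (conj γ).toMonoidHom) h

/-- the centre -/
noncomputable def z0 : CC := ⟨τ 0, τ0_mem⟩

open Classical in
/-- the labelled points -/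
noncomputable def tt (a : ℕ) : CC := if h : τ a ∈ C0 then ⟨τ a, h⟩ else 1

theorem tt_coe {a : ℕ} (h : ok0 a) : (tt a : Γ) = τ a := by
  rw [tt, dif_pos (show τ a ∈ C0 from subset_closure ((τ_Y0 h.1).2 h))]

theorem tt_mem {a : ℕ} (h : ok0 a) : tt a ∈ YY := show (tt a : Γ) ∈ Y0 from tt_coe h ▸ (τ_Y0 h.1).2 h

theorem mem_YY {y : CC} : y ∈ YY ↔ ∃ a, ok0 a ∧ tt a = y :=
  ⟨fun m => let ⟨a, p, e⟩ := mem_Y0.1 m; ⟨a, p, Subtype.ext ((tt_coe p).trans e)⟩, fun ⟨_, p, e⟩ => e ▸ tt_mem p⟩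

theorem pr_coe {l : List ℕ} (h : ∀ a ∈ l, ok0 a) : ((pr tt l : CC) : Γ) = pr τ l := by
  induction l with
  | nil => rfl
  | cons a l ih => rw [pr_cons, pr_cons, coe_mul, tt_coe (h a (by simp)), ih fun b m => h b (by simp [m])]

theorem ok0_pt {a b : ℕ} (p : ok0 a) (q : ok0 b) : ok0 (F.pt a b) :=
  (τ_Y0 (ps.cl a b p.1 q.1)).1 (ps.cj a b p.1 q.1 ▸ t0.prim.mem ((τ_Y0 p.1).2 p) ((τ_Y0 q.1).2 q))

theorem pst : PS tt ok0 F.pt :=
  ⟨fun _ p => t0Y.prim.sq (tt_mem p), fun _ _ => ok0_pt, fun a b p q => Subtype.ext (by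
    rw [coe_mul, coe_mul, tt_coe p, tt_coe q, tt_coe (ok0_pt p q), ps.cj a b p.1 q.1])⟩

/-- equality of words in the model -/
theorem tt_eq {u v : List ℕ} (h : (∀ a ∈ u, ok0 a) ∧ (∀ a ∈ v, ok0 a) ∧ F.ext.eqOK (tw u) (tw v) = true) : pr tt u = pr tt v :=
  Subtype.ext (by rw [pr_coe h.1, pr_coe h.2.1, pr_eq h.2.2])

theorem tt_eqz {u v : List ℕ} (h : (∀ a ∈ u, ok0 a) ∧ (∀ a ∈ v, ok0 a) ∧ F.ext.eqOK (tw u) (tw (0 :: v)) = true) :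
    pr tt u = z0 * pr tt v := Subtype.ext (by rw [coe_mul, pr_coe h.1, pr_coe h.2.1, pr_eq h.2.2, pr_cons]; rfl)

/-- the automorphism induced by an element of `Γ` -/
noncomputable def ρ {γ : Γ} (c : Commute (τ 0) γ) : MulAut CC :=
  ⟨⟨fun x => ⟨_, conj_C0 c x.2⟩, fun x => ⟨_, conj_C0 c.inv_right x.2⟩, fun x => Subtype.ext (by simp [mul_assoc]),
    fun x => Subtype.ext (by simp [mul_assoc])⟩, fun x y => Subtype.ext (by simp [mul_assoc])⟩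

theorem ρ_coe {γ : Γ} (c : Commute (τ 0) γ) (x : CC) : ((ρ c x : CC) : Γ) = γ * x * γ⁻¹ := rfl

/-- the standard involutions -/
def W3 : List (List ℕ) := [[6], [6, 40], [6, 40, 43]]

end Cfsg.Lib.U6S
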