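import Cfsg.Agent.Lib.U6S.Aut

/-! # Automorphisms that fix much of the centraliser of an involution (helper15, `docs/U6S.md`) -/

set_option autoImplicit false
set_option maxRecDepth 100000

namespace Cfsg.Lib.U6S

open Subgroup Cfsg.Lib.Calc Cfsg.Lib.Fi Cfsg.Lib.Fi.M22 Cfsg.Lib.Fischer Cfsg.Lib.ThreeTr Cfsg.Lib.F24T Cfsg.Lib.F223
open MulAut (conj)

theorem conj_z0_mul (x : CC) : conj (z0 * x) = conj x := by
  rw [map_mul, ← ρ_conj z0, (ρ_eq_one (C0_comm z0.2)).2 (.inr rfl), one_mul]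

theorem W3_ok {w : List ℕ} (m : w ∈ W3) : ∀ a ∈ w, ok0 a := (by decide +kernel : ∀ w ∈ W3, ∀ a ∈ w, ok0 a) w m

theorem comm_z0 {c x : CC} : Commute c (z0 * x) ↔ Commute c x :=
  ⟨fun h => by simpa using (z0_comm c).symm.inv_right.mul_right h, (z0_comm c).symm.mul_right⟩

theorem k3w {w : List ℕ} (m : w ∈ W3) (α : MulAut CC) (f : ∀ c, Commute c (pr tt w) → α c = c) : α = 1 ∨ α = conj (pr tt w) := by
  obtain ⟨γ, c, rfl⟩ := aut α
  have p := pr_coe (W3_ok m)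
  rcases k3 m c (fun x hx k => (mul_inv_eq_iff_eq_mul.1 (congrArg Subtype.val (f ⟨x, hx⟩ (Subtype.ext (by
    rw [coe_mul, coe_mul, p]; exact k))))).symm) with e | e | e | e
  · exact .inl ((ρ_eq_one c).2 (.inl e))
  · exact .inl ((ρ_eq_one c).2 (.inr e))
  · exact .inr (MulEquiv.ext fun x => Subtype.ext (by rw [ρ_coe, e, ← p]; rfl))
  · exact .inr (conj_z0_mul _ ▸ MulEquiv.ext fun x => Subtype.ext (by rw [ρ_coe, e, ← p]; rfl))

/-- `inv_std`, conjugate (`α ↦ (conj l)⁻¹ α (conj l)`), `aut`, `U6S.k3`, `ρ_eq_one` -/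
theorem fu_k3 (ξ : CC) (h : ξ * ξ = 1) (h1 : ξ ≠ 1) (h2 : ξ ≠ z0) (α : MulAut CC) (f : ∀ c, Commute c ξ → α c = c) : α = 1 ∨ α = conj ξ := by
  obtain ⟨l, w, m, e⟩ := ((inv_std h).resolve_left h1).resolve_left h2
  have k : (∀ c, Commute c ξ ↔ Commute c (l * pr tt w * l⁻¹)) ∧ conj ξ = conj (l * pr tt w * l⁻¹) := by
    rcases e with rfl | rfl
    exacts [⟨fun _ => Iff.rfl, rfl⟩, ⟨fun _ => comm_z0, conj_z0_mul _⟩]
  refine (k3w m ((conj l)⁻¹ * α * conj l) fun c p => ?_).imp (fun e => ?_) fun e => ?_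
  · rw [MulAut.mul_apply, MulAut.mul_apply, MulAut.conj_apply, f _ ((k.1 _).2 ((commute_conj_iff l _ _).2 p))]; simp [mul_assoc]
  · rwa [mul_assoc, inv_mul_eq_one, right_eq_mul] at e
  · rw [k.2, map_mul, map_mul, map_inv, ← e]; group

/-- The points that commute with the standard plane. -/
def K22 : List ℕ := [0, 6, 40, 43, 47, 59, 154, 155, 172, 424, 427, 434, 472, 637, 1062, 1710, 1734, 1779, 2609, 2692, 3399, 3400]

theorem fc {w : List ℕ} (m : w ∈ W3) {a : ℕ} (ha : a ∈ Z9) {v : CC} (hv : v ∈ Dx YY (tt a)) (e : tt a * v = pr tt w ∨ tt a * v = z0 * pr tt w) :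
    False := by
  have oa := (by decide +kernel : ∀ a ∈ Z9, ok0 a) a ha
  have c (b : ℕ) (hb : b ∈ [6, 40, 43]) : Commute (v : Γ) (τ b) := by
    obtain ⟨ob, k⟩ := (by decide +kernel : ∀ w ∈ W3, ∀ b ∈ [6, 40, 43], ok0 b ∧ F.ext.eqOK (tw (b :: w)) (tw (w ++ [b])) = true) w m b hb
    have : Commute (tt b) (pr tt w) := (pr_cons tt b w).symm.trans ((tt_eq ⟨List.forall_mem_cons.2 ⟨ob, W3_ok m⟩,
      List.forall_mem_append.2 ⟨W3_ok m, List.forall_mem_singleton.2 ob⟩, k⟩).trans (by simp [pr_append]))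
    exact tt_coe ob ▸ congrArg Subtype.val (k6_two t0Y.prim.toFS (tt_mem oa) hv (tt_mem ob) (by
      rcases e with e | e <;> rw [e]; exacts [this, comm_z0.2 this])).2.symm.eq
  obtain ⟨q, hq, -, k, hk, e'⟩ := has.cover (H := ⊥) (ks := []) (by simp) (r := 0) (qs := K22) (C := F.ext.adjL [0, 6, 40, 43])
    (by decide +kernel) (d := v) ((has.mem_adjL _).2 ⟨hv.1.1, List.forall_mem_cons.2 ⟨hv.1.2.2.symm, c⟩⟩)
  rw [mem_bot.1 hk, one_mul, inv_one, mul_one] at e'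
  obtain ⟨n1, n2⟩ := (by decide +kernel : ∀ w ∈ W3, ∀ a ∈ Z9, ∀ q ∈ K22, F.ext.neOK (tw [a, q]) (tw w) 1901 = true ∧
    F.ext.neOK (tw [a, q]) (tw (0 :: w)) 1901 = true) w m a ha q hq
  have n1 := has.ne n1
  have n2 := has.ne n2
  rw [ev_tw, ev_tw] at n1 n2
  have p : pr τ [a, q] = (tt a * v : CC) := by rw [coe_mul, tt_coe oa, ← e']; simp
  rcases e with e | e
  exacts [n1 (p.trans (e ▸ pr_coe (W3_ok m))), n2 (p.trans (e ▸ z0_pr (W3_ok m)))]

theorem fixw {w : List ℕ} (m : w ∈ W3) (N : Subgroup CC) (n : ∀ c, Commute c (pr tt w) → ∀ n ∈ N, c * n * c⁻¹ ∈ N)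
    (i : ∀ n ∈ N, n * n = 1 → n = 1 ∨ n = pr tt w ∨ n = z0 * pr tt w) (α : MulAut CC) (f : ∀ y ∈ YY, Commute y (pr tt w) → y * α y ∈ N) :
    In α ∧ α * α = 1 := by
  have S := t0Y.prim.toFS
  have cw {a : ℕ} (h : ok0 a ∧ F.pt a 6 = 6 ∧ F.pt a 40 = 40 ∧ F.pt a 43 = 43) : Commute (tt a) (pr tt w) :=
    Commute.list_prod_right _ _ (List.forall_mem_map.2 fun b hb => pst.commute h.1 (W3_ok m b hb) (by
      rcases (by decide : ∀ w ∈ W3, ∀ b ∈ w, b = 6 ∨ b = 40 ∨ b = 43) w m b hb with rfl | rfl | rfl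
      exacts [h.2.1, h.2.2.1, h.2.2.2]))
  have key (a : ℕ) (ha : a ∈ Z9) : α (tt a) = tt a := by
    obtain ⟨u, -, oa, hu, e⟩ := (by decide +kernel : ∀ a ∈ Z9, ∃ u ∈ [[6, 424, 434, 637], [6, 155, 1062, 1734], [6, 172, 1779, 2692],
      [6, 40, 3399, 3400], [6, 47, 1062, 1734], [6, 59, 1779, 2692], [6, 472, 1710, 2609], [6, 43, 424, 637], [6, 47, 155, 1734]],
      (ok0 a ∧ F.pt a 6 = 6 ∧ F.pt a 40 = 40 ∧ F.pt a 43 = 43) ∧ (∀ c ∈ u, (ok0 c ∧ F.pt c 6 = 6 ∧ F.pt c 40 = 40 ∧ F.pt c 43 = 43) ∧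
        c ≠ a ∧ F.pt a c = c) ∧ F.ext.eqOK (tw [a]) (tw (0 :: u)) = true) a ha
    have my := tt_mem oa.1
    have my' := fu_aut α _ my
    have z := f _ my (cw oa)
    have fc' {v : CC} (hv : v ∈ Dx YY (tt a)) (k : tt a * v ∈ N) : False :=
      (i _ k (by rw [hv.2.2.symm.mul_mul_mul_comm, S.sq my, S.sq hv.1, one_mul])).elim
        (fun e => hv.2.1 (by rw [eq_inv_of_mul_eq_one_right e, S.inv my])) (fc m ha hv)
    by_contra ne
    by_cases yy : Commute (tt a) (α (tt a))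
    · exact fc' ⟨my', ne, yy⟩ z
    obtain ⟨c, hc, n'⟩ : ∃ c ∈ u, ¬ Commute (tt c) (α (tt a)) := by
      by_contra! k
      have e := tt_eqz ⟨List.forall_mem_singleton.2 oa.1, fun c hc => (hu c hc).1.1, e⟩
      rw [pr_cons, pr_nil, mul_one] at e
      exact yy (by
        nth_rw 1 [e]; exact (z0_comm _).mul_left (Commute.list_prod_left _ _ (List.forall_mem_map.2 k)))
    have hw := tt_dx ⟨oa.1, (hu c hc).1.1, (hu c hc).2⟩
    refine fc' hw ?_
    convert mul_mem (mul_mem z (inv_mem (n _ (cw (hu c hc).1) _ z))) z using 1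
    generalize tt a = y, tt c = w at *
    generalize α y = y' at *
    have b1 : ∀ z, w * (y' * (w * z)) = y' * (w * (y' * z)) := fun z => by simp only [← mul_assoc, S.braid hw.1 my' n']
    have c1 : ∀ z, w * (y * z) = y * (w * z) := fun z => by simp only [← mul_assoc, hw.2.2.eq]
    rw [← mul_one (_ * (y * y')), ← mul_one (y * w)]
    simp only [mul_inv_rev, S.inv hw.1, S.inv my, S.inv my', mul_assoc, ← c1, sq_cancel_left (S.sq my), b1,
      sq_cancel_left (S.sq my'), inv_inv]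
  obtain ⟨γ, c, rfl⟩ := aut α
  obtain ⟨p, q⟩ := k4 c fun a ha => by
    have := congrArg Subtype.val (key a ha)
    rw [ρ_coe, tt_coe ((by decide +kernel : ∀ a ∈ Z9, ok0 a) a ha)] at this
    exact (mul_inv_eq_iff_eq_mul.1 this).symm
  exact ⟨(in_iff c).2 p, by rw [← ρ_mul, ρ_eq_one]; exact .inl q⟩

/-- Reduce to `ξ ∈ {w, z0 w}`, `w = pr tt w`, `w ∈ W3`.  For `a ∈ Z9`, `y = tt a`, `y' = α y ∈ YY`: (fc) no `v ∈ Dx YY y` has `y v ∈ {w, z0 w}` (such `v` commutes with `6, 40, 43`, so its label lies in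
`K0 = adjL [0,6,40,43]`; finite check with `neOK … 1901`, the group `⟨K0⟩` is regular on the orbit of 1901).  If `y' ≠ y` commutes with `y`, `y y' ∈ N` contradicts (fc).  Otherwise some
`c ∈ K0 ∖ {0, a}` does not commute with `y'` (`τ a` = product of `43:[0,6,424,434,637] 47:[0,6,155,1062,1734] 59:[0,6,172,1779,2692] 154:[0,6,40,3399,3400] 155:[0,6,47,1062,1734]
172:[0,6,59,1779,2692] 427:[0,6,472,1710,2609] 434:[0,6,43,424,637] 1062:[0,6,47,155,1734]`), and `n (c n c⁻¹)⁻¹ n = y c` for `n = y y'` (see the end of `F24T.Pr.fix`), against (fc).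
So `α` fixes `Z9`: `aut`, `U6S.k4`, `in_iff`. -/
theorem fu_fix (ξ : CC) (h : ξ * ξ = 1) (h1 : ξ ≠ 1) (h2 : ξ ≠ z0) (N : Subgroup CC) (n : ∀ c, Commute c ξ → ∀ n ∈ N, c * n * c⁻¹ ∈ N)
    (i : ∀ n ∈ N, n * n = 1 → n = 1 ∨ n = ξ ∨ n = z0 * ξ) (α : MulAut CC) (f : ∀ y ∈ YY, Commute y ξ → y * α y ∈ N) : In α ∧ α * α = 1 := by
  obtain ⟨l, w, m, e⟩ := ((inv_std h).resolve_left h1).resolve_left h2
  have k (c : CC) (p : Commute c (pr tt w)) : Commute (l * c * l⁻¹) ξ := by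
    rcases e with rfl | rfl
    exacts [(commute_conj_iff l _ _).2 p, comm_z0.2 ((commute_conj_iff l _ _).2 p)]
  obtain ⟨⟨x, p⟩, q⟩ := fixw m (N.comap (conj l).toMonoidHom) (fun c p x hx => by
      simpa [mul_assoc] using n _ (k c p) _ hx) (fun x hx q => by
      have := i _ hx (by rw [← map_mul, q, map_one])
      change l * x * l⁻¹ = 1 ∨ l * x * l⁻¹ = ξ ∨ l * x * l⁻¹ = z0 * ξ at this
      rcases e with rfl | rfl
      · simpa only [← conj_z0, conj_eq_one_iff, mul_left_inj, mul_right_inj] using this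
      · simpa only [sq_cancel_left z0_sq, ← conj_z0, conj_eq_one_iff, mul_left_inj, mul_right_inj, or_comm (a := x = z0 * _)] using this)
    ((conj l)⁻¹ * α * conj l) fun y hy p => by simpa [mul_assoc] using f _ ((nrmY l).mem hy) (k y p)
  exact ⟨⟨l * x * l⁻¹, by rw [map_mul, map_mul, map_inv, ← p]; group⟩, by
    rw [show α * α = conj l * ((conj l)⁻¹ * α * conj l * ((conj l)⁻¹ * α * conj l)) * (conj l)⁻¹ by group, q]; group⟩

end Cfsg.Lib.U6S
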