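import Cfsg.Agent.Lib.U6S.Aut
import Cfsg.Agent.Lib.Fi.ExtA

/-! # Outer involutions (helper15, helper26) -/

set_option autoImplicit false
set_option maxRecDepth 100000

namespace Cfsg.Lib.U6S

open Subgroup Cfsg.Lib.Calc Cfsg.Lib.Fi Cfsg.Lib.Fi.M22 Cfsg.Lib.Fischer Cfsg.Lib.ThreeTr Cfsg.Lib.F24T Cfsg.Lib.F223
open MulAut (conj)

section

open Matrix Cfsg.Lib.Unitary Cfsg.Lib.Linear Cfsg.Lib.Orth Module

variable {β β' : MulAut UU}

theorem out_dec (b2 : β * β = 1) (n : β ∉ Inn UU) :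
    ∃ (g : GU 6 F4 2) (τ : F4 ≃+* F4), β = diagAut g * Unitary.fieldAut τ ∧ ∀ a, τ a = cj4 a := by
  obtain ⟨g, τ, e⟩ := aut_PSU_decomp h4 (by decide) (by decide) β
  exact ⟨g, τ, e, (gal τ).resolve_left fun t => n (by
    have := (diag3 (α := β) ⟨g, by rw [e, t, map_one, mul_one]⟩ (one_mem _)).1
    rwa [pow_succ, pow_two, b2, one_mul] at this)⟩

theorem hφ4 : ∀ x, cj4 x = x ↔ x ∈ (algebraMap (ZMod 2) F4).range := by simp only [RingHom.mem_range]; decide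

theorem out_gr {τ : F4 ≃+* F4} (hτ : ∀ a, τ a = cj4 a) (b2 : β * β = 1) (n : β ∉ Inn UU) :
    ∃ P N δ, IsGr cj4 τ (algebraMap (ZMod 2) F4) β P N δ := by
  obtain ⟨g, τ', e, h'⟩ := out_dec b2 n
  exact exists_isGr_of_graph isBar_cj4 hτ hφ4 (by decide) (isGraphAutClassPSU_iff.2 ⟨by decide, g, τ', by
    rw [orderOf_bar isBar_cj4 h']; exact even_two, e⟩) (orderOf_eq_prime (by rw [pow_two, b2]) fun f => n (f ▸ one_mem _))

theorem gr_conj {τ : F4 ≃+* F4} (hτ : ∀ a, τ a = cj4 a) {P P' : GL (Fin 6) F4} {N N' : GL (Fin 6) (ZMod 2)} {δ δ' : F4}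
    (k : IsGr cj4 τ (algebraMap (ZMod 2) F4) β P N δ) (k' : IsGr cj4 τ (algebraMap (ZMod 2) F4) β' P' N' δ')
    (h : (frm N).IsAlt ↔ (frm N').IsAlt) : IsConjUnder (diagAut : GU 6 F4 2 →* _).range β β' := by
  refine (k.isConjUnder_iff isBar_cj4 hτ hφ4 (by decide) k').2 ?_
  by_cases a : (frm N).IsAlt
  · obtain ⟨e, he⟩ := Symp.exists_isometry_of_finrank_eq a (nd_frm N) (h.1 a) (nd_frm N') rfl
    exact ⟨e, 1, one_ne_zero, by simpa using he⟩
  · have a' := mt h.2 a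
    obtain ⟨c, hc⟩ := Symp.exists_symC rfl ((k.isSymm_or_isAlt isBar_cj4.invol hφ4).resolve_right a).eq (nd_frm _)
    obtain ⟨d, hd⟩ := Symp.exists_symC rfl ((k'.isSymm_or_isAlt isBar_cj4.invol hφ4).resolve_right a').eq (nd_frm _)
    obtain ⟨e, he⟩ := hc.exists_isometry hd rfl fun _ => by rw [hc.eq_zero_iff, hd.eq_zero_iff, iff_false_intro a, iff_false_intro a']
    exact ⟨e, 1, one_ne_zero, by simpa using he⟩

theorem iff3 {p q r : Prop} (a : ¬ (p ↔ r)) (b : ¬ (q ↔ r)) : p ↔ q := by tauto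

theorem out_alg {A : Type*} [Group A] {x y t f : A} (h1 : t * x * t⁻¹ = f) (h2 : f * x = 1) (h3 : x ^ 3 = 1)
    (h4 : y * x⁻¹ * y⁻¹ * x⁻¹⁻¹ = 1) (h5 : x * (y * t) * x⁻¹ * (y * t) = 1) (h6 : y * t * (y * t) = 1) : x = 1 := by
  have e1 : t * x * t⁻¹ = x⁻¹ := h1.trans (eq_inv_of_mul_eq_one_left h2)
  have e2 : y * x⁻¹ * y⁻¹ = x⁻¹ := by rw [mul_inv_eq_one] at h4; exact h4
  have e3 : x * (y * t) = y * t * x := by
    rw [← h6, mul_left_inj, mul_inv_eq_iff_eq_mul] at h5; exact h5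
  have e4 : y * t * x * (y * t)⁻¹ = x⁻¹ := by rw [← e2]; nth_rewrite 1 [← e1]; group
  rw [← e3, mul_inv_cancel_right] at e4
  rw [pow_succ, pow_two] at h3
  nth_rewrite 1 [e4] at h3
  rwa [inv_mul_cancel, one_mul] at h3

theorem out_alg' {A : Type*} [Group A] {N : Subgroup A} [N.Normal] {x y t f : A} (h1 : t * x * t⁻¹ = f) (h2 : f * x ∈ N)
    (h3 : x ^ 3 ∈ N) (h4 : y * x⁻¹ * y⁻¹ * x⁻¹⁻¹ ∈ N) (h5 : x * (y * t) * x⁻¹ * (y * t) ∈ N) (h6 : y * t * (y * t) = 1) : x ∈ N :=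
  (QuotientGroup.eq_one_iff _).1 (out_alg (A := A ⧸ N) (y := y) (t := t) (f := f) (congrArg (QuotientGroup.mk' N) h1)
    ((QuotientGroup.eq_one_iff _).2 h2) ((QuotientGroup.eq_one_iff _).2 h3) ((QuotientGroup.eq_one_iff _).2 h4)
    ((QuotientGroup.eq_one_iff _).2 h5) (congrArg (QuotientGroup.mk' N) h6))

theorem det_inn {τ : F4 ≃+* F4} (hτ : ∀ a, τ a = cj4 a) (g : GU 6 F4 2) : diagAut (fieldGU τ g) * diagAut g ∈ Inn UU := by
  rw [← map_mul]
  refine (diagAut_mem_inn_iff h4 (by decide)).2 (mem_sup_left ?_)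
  rw [← isBar_cj4.ker_detGU, MonoidHom.mem_ker]
  refine Subtype.ext (Units.ext ?_)
  have := (isBar_cj4.detGU 6 g).2
  rw [mem_normOne, isBar_cj4.detGU_coe] at this
  rw [map_mul, coe_mul, Units.val_mul, isBar_cj4.detGU_coe, isBar_cj4.detGU_coe, fieldGU_coe, mul_comm]
  exact (congrArg _ (((τ : F4 →+* F4).map_det _).symm.trans (hτ _))).trans this

theorem conj_inn (b2 : β * β = 1) (n : β ∉ Inn UU) (h : IsConjUnder (diagAut : GU 6 F4 2 →* _).range β β')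
    (i : β' * β ∈ Inn UU) : ∃ u : UU, β' = conj u * β * (conj u)⁻¹ := by
  obtain ⟨x, ⟨g, e1⟩, e2⟩ := h
  obtain ⟨g0, τ, e3, hτ⟩ := out_dec b2 n
  rw [e2, e3] at i
  rw [e3] at b2
  rw [← e1] at i
  obtain ⟨u, e⟩ := out_alg' (fieldAut_conj_diagAut τ g) (det_inn hτ g) (diag3 ⟨g, rfl⟩ ⟨g, rfl⟩).1
    (diag3 ⟨g0, rfl⟩ (inv_mem ⟨g, rfl⟩)).2 i b2
  exact ⟨u, by rw [e2, ← e1, ← e]⟩

end

/-- Adapt `F223.outer`: both are `IsGr` with forms over `ZMod 2` (alternating forms are symmetric); `Symp.exists_symC`, `SymC.exists_isometry`, `IsGr.isConjUnder_iff` show that two outer involutions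
are conjugate under `diagAut.range` iff both or none of the forms are alternating.  If `g ∈ diagAut.range` and `g β g⁻¹ β⁻¹ ∈ Inn`, then `g ∈ Inn` (`fieldAut_conj_diagAut`, `diagAut_mem_inn_iff`, or
`splitClassCount`). -/
theorem two_classes {β β₁ β₂ : MulAut UU} (h : ∀ x ∈ [β, β₁, β₂], x * x = 1 ∧ x ∉ Inn UU) (h₁ : β * β₁ ∈ Inn UU) (h₂ : β * β₂ ∈ Inn UU) :
    ∃ u : UU, β = conj u * β₁ * (conj u)⁻¹ ∨ β = conj u * β₂ * (conj u)⁻¹ ∨ β₁ = conj u * β₂ * (conj u)⁻¹ := by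
  simp only [List.forall_mem_cons] at h
  obtain ⟨⟨a0, b0⟩, ⟨a1, b1⟩, ⟨a2, b2⟩, -⟩ := h
  obtain ⟨-, τ, -, hτ⟩ := out_dec a0 b0
  obtain ⟨_, N0, _, k0⟩ := out_gr hτ a0 b0
  obtain ⟨_, N1, _, k1⟩ := out_gr hτ a1 b1
  obtain ⟨_, N2, _, k2⟩ := out_gr hτ a2 b2
  have h₃ : β₁ * β₂ ∈ Inn UU := by
    have := mul_mem (inv_mem h₁) h₂
    rwa [mul_inv_rev, mul_assoc, inv_mul_cancel_left, inv_eq_of_mul_eq_one_right a1] at this
  by_cases c1 : (Linear.frm N1).IsAlt ↔ (Linear.frm N0).IsAlt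
  · exact (conj_inn a1 b1 (gr_conj hτ k1 k0 c1) h₁).imp fun _ => .inl
  by_cases c2 : (Linear.frm N2).IsAlt ↔ (Linear.frm N0).IsAlt
  · exact (conj_inn a2 b2 (gr_conj hτ k2 k0 c2) h₂).imp fun _ e => .inr (.inl e)
  · exact (conj_inn a2 b2 (gr_conj hτ k2 k1 (iff3 c2 c1)) h₃).imp fun _ e => .inr (.inr e)

section

variable {H U : Type*} [Group H] [Group U] {π : H →* U} {d : H} (C : Fischer.Cov π d) {α α' : MulAut H} {β β' : MulAut U}

variable (π) in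
/-- `α` induces `β` -/
def Br (α : MulAut H) (β : MulAut U) : Prop := ∀ x, β (π x) = π (α x)

theorem Br.mul (h : Br π α β) (h' : Br π α' β') : Br π (α * α') (β * β') := fun x => by
  rw [MulAut.mul_apply, h', h, MulAut.mul_apply]

theorem Br.inv (h : Br π α β) : Br π α⁻¹ β⁻¹ := fun x => by
  rw [MulAut.inv_apply, MulEquiv.symm_apply_eq, h, MulAut.apply_inv_self]

theorem br_conj (x : H) : Br π (conj x) (conj (π x)) := fun y => by simp

include C

theorem Br.uniq (h : Br π α β) (h' : Br π α β') : β = β' := MulEquiv.ext fun u => by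
  obtain ⟨x, rfl⟩ := C.surj u
  rw [h, h']

theorem exists_br (h : α d = d) : ∃ β, Br π α β := by
  have k : ∀ α : MulAut H, α d = d → ∃ f : U →* U, ∀ x, f (π x) = π (α x) := fun α h =>
    ⟨π.liftOfSurjective C.surj ⟨π.comp α.toMonoidHom, fun x m => by
      rcases (C.ker x).1 m with rfl | rfl
      · exact one_mem _
      · exact (congrArg π h).trans C.map_d⟩, fun x => π.liftOfRightInverse_comp_apply _ _ _ x⟩
  obtain ⟨f, a⟩ := k α h
  obtain ⟨g, b⟩ := k α⁻¹ (α.symm_apply_eq.2 h.symm)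
  refine ⟨f.toMulEquiv g (MonoidHom.ext fun u => ?_) (MonoidHom.ext fun u => ?_), a⟩ <;> obtain ⟨x, rfl⟩ := C.surj u
  · rw [MonoidHom.comp_apply, a, b, MulAut.inv_apply_self, MonoidHom.id_apply]
  · rw [MonoidHom.comp_apply, b, a, MulAut.apply_inv_self, MonoidHom.id_apply]

theorem Br.eq_one (hH : Group.IsPerfect H) (h : Br π α 1) : α = 1 := by
  have k : ∀ x, ∃ z, (∀ y, Commute z y) ∧ α x = z * x := fun x => (C.eq_or (h x).symm).elim
    (fun e => ⟨1, Commute.one_left, e.trans (one_mul x).symm⟩) fun e => ⟨d, C.cen, e⟩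
  have : commutator H ≤ α.toMonoidHom.eqLocus (MonoidHom.id H) := commutator_le.2 fun x _ y _ => by
    obtain ⟨a, a1, a2⟩ := k x
    obtain ⟨b, b1, b2⟩ := k y
    change α _ = _
    rw [map_commutatorElement, a2, b2, MonoidHom.id_apply, commutatorElement_def, commutatorElement_def,
      show a * x * (b * y) * (a * x)⁻¹ = a * (x * (b * y) * x⁻¹) * a⁻¹ by group, (a1 _).mul_inv_cancel,
      ← mul_assoc x, ← (b1 x).eq,
      show b * x * y * x⁻¹ * (b * y)⁻¹ = b * (x * y * x⁻¹ * y⁻¹) * b⁻¹ by group, (b1 _).mul_inv_cancel]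
  exact MulEquiv.ext fun x => this (hH.commutator_eq_top.ge (mem_top x))

theorem Br.inj (hH : Group.IsPerfect H) (h : Br π α β) (h' : Br π α' β) : α = α' :=
  mul_inv_eq_one.1 (Br.eq_one C hH (mul_inv_cancel β ▸ h.mul h'.inv))

theorem Br.in_iff (hH : Group.IsPerfect H) (h : Br π α β) : In α ↔ β ∈ Inn U :=
  ⟨fun ⟨x, e⟩ => ⟨π x, (br_conj x).uniq C (e ▸ h)⟩, fun ⟨u, e⟩ =>
    let ⟨x, r⟩ := C.surj u; ⟨x, h.inj C hH (e ▸ r ▸ br_conj x)⟩⟩

end

theorem ρ_z0 {γ : Γ} (c : Commute (τ 0) γ) : ρ c z0 = z0 := Subtype.ext c.symm.mul_inv_cancel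

theorem ρ_eq {γ γ' : Γ} (c : Commute (τ 0) γ) (c' : Commute (τ 0) γ') (x : CC) (e : ρ c = conj x * ρ c' * (conj x)⁻¹) :
    γ = x * γ' * (x : Γ)⁻¹ ∨ γ = x * (τ 0 * γ') * (x : Γ)⁻¹ := by
  have a := ((C0_comm x.2).mul_right c').mul_right (C0_comm x⁻¹.2)
  have e1 : ρ a = ρ c := by
    rw [ρ_mul ((C0_comm x.2).mul_right c') (C0_comm x⁻¹.2), ρ_mul (C0_comm x.2) c', ρ_conj, ρ_conj, map_inv, e]
  have e2 : ρ (c.mul_right a.inv_right) = 1 := by
    rw [ρ_mul c a.inv_right, ← e1, ← ρ_mul]; exact (ρ_eq_one _).2 (.inl (mul_inv_cancel _))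
  refine ((ρ_eq_one _).1 e2).imp mul_inv_eq_one.1 fun k => (eq_mul_of_mul_inv_eq k).trans ?_
  rw [← mul_assoc, ← mul_assoc, (C0_comm x.2).eq, mul_assoc (x : Γ), coe_inv]

theorem pr_cm {w : List ℕ} (h : F.ext.eqOK (tw (0 :: w)) (tw (w ++ [0])) = true) : Commute (τ 0) (pr τ w) := by
  have := pr_eq h
  rwa [pr_cons, pr_append, pr_cons, pr_nil, mul_one] at this

theorem pr_sq {w : List ℕ} (h : F.ext.eqOK (tw (w ++ w)) (tw []) = true) : pr τ w * pr τ w = 1 := by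
  have := pr_eq h
  rwa [pr_append] at this

theorem pr_odd {w : List ℕ} (h : oddOK 3510 (tw w) = true) : pr τ w ∉ I := by
  have := odd h
  rwa [ev_tw] at this

theorem co1 : Commute (τ 0) (pr τ [13, 3510, 13]) := pr_cm (by decide +kernel)

theorem co2 : Commute (τ 0) (pr τ [13, 3510, 13, 16]) := pr_cm (by decide +kernel)

/-- `exists_cov`; `MulAut CC →* MulAut UU` is injective (`α y ∈ {y, z0 y} ∩ YY`) and respects inner automorphisms.  `o₁ = [13,3510,13]` (360 fixed points), `o₂ = o₁ · τ 16` (64; `τ 0 · o₂`: 72), `has.not_isConj`. -/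
theorem out_std {γ : Γ} (c : Commute (τ 0) γ) (n : γ ∉ I) (h : γ * γ = 1 ∨ γ * γ = τ 0) :
    ∃ x ∈ C0, ∃ w ∈ [[13, 3510, 13], [13, 3510, 13, 16], [0, 13, 3510, 13], [0, 13, 3510, 13, 16]], γ = x * pr τ w * x⁻¹ := by
  obtain ⟨π, C⟩ := exists_cov
  have n1 : pr τ [13, 3510, 13] ∉ I := pr_odd (by decide +kernel)
  have n2 : pr τ [13, 3510, 13, 16] ∉ I := pr_odd (by decide +kernel)
  have k : ∀ {γ : Γ} (c : Commute (τ 0) γ), γ ∉ I → γ * γ = 1 ∨ γ * γ = τ 0 → ∃ β, Br π (ρ c) β ∧ β * β = 1 ∧ β ∉ Inn UU :=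
    fun c n h => let ⟨β, b⟩ := exists_br C (ρ_z0 c)
    ⟨β, b, (b.mul b).uniq C (by rw [← ρ_mul, (ρ_eq_one _).2 h]; exact fun _ => rfl),
      fun i => n ((in_iff c).1 ((b.in_iff C perf).2 i))⟩
  have i : ∀ {γ γ' : Γ} {c : Commute (τ 0) γ} {c' : Commute (τ 0) γ'} {β β'}, γ ∉ I → γ' ∉ I → Br π (ρ c) β → Br π (ρ c') β' →
      β * β' ∈ Inn UU := fun n n' b b' => ((b.mul b').in_iff C perf).1 (by
    rw [← ρ_mul, in_iff, mul_mem_iff_of_index_two idx]; exact iff_of_false n n')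
  have l : ∀ {γ γ' : Γ} {c : Commute (τ 0) γ} {c' : Commute (τ 0) γ'} {β β'} {u : UU}, Br π (ρ c) β → Br π (ρ c') β' →
      β = conj u * β' * (conj u)⁻¹ → ∃ x ∈ C0, γ = x * γ' * x⁻¹ ∨ γ = x * (τ 0 * γ') * x⁻¹ := fun {_ _ c c' _ _ u} b b' e =>
    let ⟨x, r⟩ := C.surj u
    ⟨x, x.2, ρ_eq c c' x (b.inj C perf (e ▸ r ▸ ((br_conj x).mul b').mul (br_conj x).inv))⟩
  obtain ⟨β, b, b1, b2⟩ := k c n h
  obtain ⟨β₁, b', b3, b4⟩ := k co1 n1 (.inl (pr_sq (by decide +kernel)))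
  obtain ⟨β₂, b'', b5, b6⟩ := k co2 n2 (.inl (pr_sq (by decide +kernel)))
  obtain ⟨u, e | e | e⟩ := two_classes (β := β) (β₁ := β₁) (β₂ := β₂)
    (by simp only [List.forall_mem_cons]; exact ⟨⟨b1, b2⟩, ⟨b3, b4⟩, ⟨b5, b6⟩, by simp⟩) (i n n1 b b') (i n n2 b b'')
  · obtain ⟨x, m, e | e⟩ := l b b' e
    exacts [⟨x, m, _, by simp, e⟩, ⟨x, m, [0, 13, 3510, 13], by simp, e⟩]
  · obtain ⟨x, m, e | e⟩ := l b b'' e
    exacts [⟨x, m, [13, 3510, 13, 16], by simp, e⟩, ⟨x, m, [0, 13, 3510, 13, 16], by simp, e⟩]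
  · obtain ⟨x, m, e | e⟩ := l b' b'' e
    · refine absurd (isConj_iff.2 ⟨x, ?_⟩) (has.not_isConj (s := tw [13, 3510, 13, 16]) (t := tw [13, 3510, 13]) (by decide +kernel))
      rw [ev_tw, ev_tw]; exact e.symm
    · refine absurd (isConj_iff.2 ⟨x, ?_⟩) (has.not_isConj (s := tw [0, 13, 3510, 13, 16]) (t := tw [13, 3510, 13]) (by decide +kernel))
      rw [ev_tw, ev_tw]; exact e.symm

/-- `out_std` (all four are involutions), `fu_nsq`, `C0_iff`; every point is conjugate to `τ 0` -/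
theorem nsqΓ (γ : Γ) {d : Γ} (m : d ∈ DG) : γ * γ ≠ d := by
  obtain ⟨g, -, rfl⟩ := t1.prim.trans (has.mem (a := 0) (by decide)) m
  intro e
  have e1 : g⁻¹ * γ * g * (g⁻¹ * γ * g) = τ 0 := by
    rw [show g⁻¹ * γ * g * (g⁻¹ * γ * g) = g⁻¹ * (γ * γ) * g by group, e]; group
  generalize g⁻¹ * γ * g = γ at e1
  have c : Commute (τ 0) γ := e1 ▸ (Commute.refl γ).mul_left (Commute.refl γ)
  by_cases n : γ ∈ I
  · exact fu_nsq ⟨γ, C0_iff.2 ⟨n, c⟩⟩ (Subtype.ext e1)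
  obtain ⟨x, -, w, m, rfl⟩ := out_std c n (.inr e1)
  have : pr τ w * pr τ w = 1 := pr_sq (by clear e1 c n; revert w; decide +kernel)
  rw [conj_mul, this, mul_one, mul_inv_cancel] at e1
  exact z0_ne (Subtype.ext e1.symm)

theorem OD.cj {α : MulAut CC} (h : OD YY α) (x : CC) : OD YY (conj x * α * (conj x)⁻¹) := by
  obtain ⟨y, m, k, a, b, c⟩ := h
  have e : ∀ u, (conj x * α * (conj x)⁻¹) (conj x u) = conj x (α u) := fun u => by
    rw [MulAut.mul_apply, MulAut.mul_apply, MulAut.inv_apply_self]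
  refine ⟨conj x y, fu_aut _ y m, conj x k, by rw [e, a], ?_, ?_⟩ <;> rw [e]
  · exact ⟨fu_aut _ _ b.1, (conj x).injective.ne b.2.1, b.2.2.map _⟩
  · simpa only [map_mul, map_inv] using congrArg (conj x) c

theorem od_w {w : List ℕ} (c : Commute (τ 0) (pr τ w))
    (h : F.ext.eqOK (tw (w ++ [28])) (tw (120 :: w)) = true ∧
      F.ext.eqOK (tw (w ++ [425, 989, 2627, 17])) (tw ([425, 989, 2627, 17] ++ w)) = true) : OD YY (ρ c) := by
  have e1 : ρ c (tt 28) = tt 120 := Subtype.ext (by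
    have := pr_eq h.1
    rw [pr_append, pr_cons, pr_nil, mul_one, pr_cons] at this
    rw [ρ_coe, tt_coe (by decide +kernel), tt_coe (by decide +kernel), this, mul_inv_cancel_right])
  have e2 : ρ c (pr tt [425, 989, 2627, 17]) = pr tt [425, 989, 2627, 17] := Subtype.ext (by
    have := pr_eq h.2
    rw [pr_append, pr_append] at this
    rw [ρ_coe, pr_coe (by decide +kernel), this, mul_inv_cancel_right])
  refine ⟨tt 28, tt_mem (by decide +kernel), _, e2, ?_, ?_⟩ <;> rw [e1]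
  · refine ⟨tt_mem (by decide +kernel), fun e => ?_, pst.commute (by decide +kernel) (by decide +kernel) (by decide +kernel)⟩
    have := congrArg Subtype.val e
    rw [tt_coe (by decide +kernel), tt_coe (by decide +kernel)] at this
    exact absurd (τ_inj (by decide) (by decide) this) (by decide)
  · have := tt_eq (u := [28, 120] ++ ([425, 989, 2627, 17] ++ [28, 120] ++ [425, 989, 2627, 17].reverse))
      (v := [425, 989, 2627, 17] ++ ([425, 989, 2627, 17] ++ [28, 120] ++ [425, 989, 2627, 17].reverse) ++ [425, 989, 2627, 17].reverse)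
      (by decide +kernel)
    simp only [pr_append, pst.pr_reverse (w := [425, 989, 2627, 17]) (by decide +kernel)] at this
    rwa [pr_cons _ 28, pr_cons _ 120, pr_nil, mul_one] at this

/-- `OD` is invariant under conjugation by inner automorphisms; data (tools/u6/data2.py): `y = 28`, `α y = 120`, `k = [425,989,2627,17]`.  `ρ γ x * x = (γ x)²`. -/
theorem fu_out (α : MulAut CC) (h : α * α = 1) (n : ¬ In α) : OD YY α ∧ ∀ x, α x * x ≠ z0 := by
  obtain ⟨γ, c, rfl⟩ := aut α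
  rw [← ρ_mul, ρ_eq_one] at h
  rw [in_iff] at n
  have m0 := has.mem (a := 0) (by decide)
  refine ⟨?_, fun x e => nsqΓ (γ * x) m0 ?_⟩
  · obtain ⟨x, m, w, hw, rfl⟩ := out_std c n h
    have k : ∀ {w} (c' : Commute (τ 0) (pr τ w)), OD YY (ρ c') →
        OD YY (ρ (((C0_comm m).mul_right c').mul_right (C0_comm (inv_mem m)))) := fun c' o => by
      rw [ρ_mul ((C0_comm m).mul_right c') (C0_comm (inv_mem m)), ρ_mul (C0_comm m) c', ρ_conj ⟨x, m⟩, ρ_conj ⟨x, m⟩⁻¹, map_inv]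
      exact o.cj _
    have z : ∀ {γ} (c' : Commute (τ 0) γ), ρ ((Commute.refl _).mul_right c') = ρ c' := fun c' => by
      rw [ρ_mul (Commute.refl _) c', (ρ_eq_one _).2 (.inr rfl), one_mul]
    simp only [List.mem_cons, List.not_mem_nil, or_false] at hw
    rcases hw with rfl | rfl | rfl | rfl
    · exact k co1 (od_w _ (by decide +kernel))
    · exact k co2 (od_w _ (by decide +kernel))
    · exact k (w := [0, 13, 3510, 13]) ((Commute.refl _).mul_right co1) (z co1 ▸ od_w _ (by decide +kernel))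
    · exact k (w := [0, 13, 3510, 13, 16]) ((Commute.refl _).mul_right co2) (z co2 ▸ od_w _ (by decide +kernel))
  · have e1 : γ * x * γ⁻¹ * x = τ 0 := congrArg Subtype.val e
    rw [← e1, inv_eq_of_mul_eq_one_right (h.resolve_right (nsqΓ γ m0)), mul_assoc (γ * x)]

/-- `ext.aut`, `M22.aut_mem`, `ext.eq_one`, `nsqΓ` -/
theorem aut_nsq (φ : MulAut Spor.Fi22) {d : Spor.Fi22} (m : d ∈ D22) : φ * φ ≠ conj d := by
  obtain ⟨e, k⟩ := ext.exists_aut (M22.aut_mem ext.has0 (class_group Fi22.transp))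
  obtain ⟨γ, rfl⟩ := e.surjective φ
  obtain ⟨a, p, rfl⟩ := ext.has0.ex m
  intro h
  rw [← map_mul, ← ext.aut_iota k, ext.tau a p] at h
  exact nsqΓ γ (has.mem p) (e.injective h)

end Cfsg.Lib.U6S
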