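import Cfsg.Agent.Lib.U6S.Fix
import Cfsg.Agent.Lib.U6S.Out

/-! # The facts hold in the model (helper15) -/

set_option autoImplicit false
set_option maxRecDepth 100000

namespace Cfsg.Lib.U6S

open Subgroup Cfsg.Lib.Calc Cfsg.Lib.Fi Cfsg.Lib.Fi.M22 Cfsg.Lib.Fischer Cfsg.Lib.ThreeTr Cfsg.Lib.F24T Cfsg.Lib.F223
open MulAut (conj)

theorem fu : Fu z0 YY :=
  ⟨t0Y, topY, z0_sq, z0_ne, fu_cen, fu_nsq, fu_aut, fu_two, fu_inv, fu_q1, fu_q2, fu_par, fu_k3, fu_fix, fu_out⟩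

end Cfsg.Lib.U6S
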