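import Cfsg.Agent.Lib.U6S.Cen

/-! # The involutions of the model of `2·U₆(2)` (helper15, `docs/U6S.md`) -/

set_option autoImplicit false
set_option maxRecDepth 100000

namespace Cfsg.Lib.U6S

open Subgroup Cfsg.Lib.Calc Cfsg.Lib.Fi Cfsg.Lib.Fi.M22 Cfsg.Lib.Fischer Cfsg.Lib.ThreeTr Cfsg.Lib.F24T Cfsg.Lib.F223
open MulAut (conj)

theorem nrmY (l : CC) : Nrm YY l := t0Y.prim.nrm_of_mem_closure (topY ▸ mem_top l)

theorem dx_conj {G : Type*} [Group G] {X : Set G} {l a b : G} (n : Nrm X l) (hb : b ∈ Dx X a) : l * b * l⁻¹ ∈ Dx X (l * a * l⁻¹) :=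
  n.image_dx a ▸ ⟨b, hb, rfl⟩

theorem tt_dx {a b : ℕ} (h : ok0 a ∧ ok0 b ∧ b ≠ a ∧ F.pt a b = b) : tt b ∈ Dx YY (tt a) :=
  ⟨tt_mem h.2.1, fun e => h.2.2.1 (τ_inj h.2.1.1 h.1.1 (by rw [← tt_coe h.1, ← tt_coe h.2.1, e])), pst.commute h.1 h.2.1 h.2.2.2⟩

theorem tt_dx2 {a b c : ℕ} (h : (ok0 a ∧ ok0 c ∧ c ≠ a ∧ F.pt a c = c) ∧ ok0 b ∧ ok0 c ∧ c ≠ b ∧ F.pt b c = c) :
    tt c ∈ Dx (Dx YY (tt a)) (tt b) := ⟨tt_dx h.1, (tt_dx h.2).2⟩

theorem z0_conj (l : CC) : l * z0 * l⁻¹ = z0 := (z0_comm l).symm.mul_inv_cancel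

theorem conj_z0 (l x : CC) : l * (z0 * x) * l⁻¹ = z0 * (l * x * l⁻¹) := by rw [← conj_mul, z0_conj]

/-- `has.cover` as in `Fischer.u6_bas` (letters `[92,1396,2179,274,679,434]`, `qs = [0,6,40,154,3399,3400,43]`, `C = adjL [0,6,40]`) after `trans_comm`. -/
theorem tri {a b c : CC} (ha : a ∈ YY) (hb : b ∈ Dx YY a) (hc : c ∈ Dx (Dx YY a) b) :
    ∃ l, ∃ q ∈ [154, 3399, 3400, 43], l * tt 6 * l⁻¹ = a ∧ l * tt 40 * l⁻¹ = b ∧ l * tt q * l⁻¹ = c := by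
  have o6 : ok0 6 := by decide +kernel
  have o40 : ok0 40 := by decide +kernel
  obtain ⟨g, -, rfl, rfl⟩ := t0Y.prim.trans_comm (tt_mem o6) (tt_dx (a := 6) (b := 40) (by decide +kernel)) ha hb
  obtain ⟨c, m, rfl⟩ := (nrmY g).exists hc.1.1
  have c6 := congrArg Subtype.val ((commute_conj_iff g _ _).1 hc.1.2.2).eq
  have c40 := congrArg Subtype.val ((commute_conj_iff g _ _).1 hc.2.2).eq
  rw [coe_mul, coe_mul, tt_coe ‹_›] at c6 c40
  obtain ⟨q, hq, -, k, ⟨k1, k2⟩, e⟩ := has.cover (H := C0 ⊓ centralizer {τ 6, τ 40}) (ks := [92, 1396, 2179, 274, 679, 434].map W.l)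
    (List.forall_mem_map.2 fun a ha =>
      have := (by decide +kernel : ∀ a ∈ [92, 1396, 2179, 274, 679, 434], ok0 a ∧ F.pt 6 a = a ∧ F.pt 40 a = a) a ha
      ⟨subset_closure ((τ_Y0 this.1.1).2 this.1), Set.forall_mem_insert.2 ⟨ps.commute (by decide) this.1.1 this.2.1,
        fun _ k => k ▸ ps.commute (by decide) this.1.1 this.2.2⟩⟩)
    (r := 1) (qs := [0, 6, 40, 154, 3399, 3400, 43]) (C := F.ext.adjL [0, 6, 40]) (by decide +kernel) (d := c)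
    ((has.mem_adjL _).2 ⟨m.1, List.forall_mem_cons.2 ⟨m.2.2.symm, List.forall_mem_cons.2 ⟨c6.symm, List.forall_mem_singleton.2 c40.symm⟩⟩⟩)
  have e6 : (⟨k, k1⟩ : CC) * tt 6 * (⟨k, k1⟩ : CC)⁻¹ = tt 6 :=
    Subtype.ext (by rw [coe_mul, coe_mul, tt_coe o6]; exact mul_inv_eq_of_eq_mul (k2 _ (.inl rfl)).symm)
  have e40 : (⟨k, k1⟩ : CC) * tt 40 * (⟨k, k1⟩ : CC)⁻¹ = tt 40 :=
    Subtype.ext (by rw [coe_mul, coe_mul, tt_coe o40]; exact mul_inv_eq_of_eq_mul (k2 _ (.inr rfl)).symm)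
  rcases List.mem_cons.1 hq with rfl | hq
  · exact absurd (e.symm.trans (C0_comm k1).symm.mul_inv_cancel) m.2.1
  have eq : (⟨k, k1⟩ : CC) * tt q * (⟨k, k1⟩ : CC)⁻¹ = c :=
    Subtype.ext (by rw [coe_mul, coe_mul, tt_coe ((by decide +kernel : ∀ q ∈ [6, 40, 154, 3399, 3400, 43], ok0 q) q hq)]; exact e)
  rcases List.mem_cons.1 hq with rfl | hq
  · exact absurd (by rw [← eq, e6]) hc.1.2.1
  rcases List.mem_cons.1 hq with rfl | hq
  · exact absurd (by rw [← eq, e40]) hc.2.1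
  have r (z : CC) : g * ⟨k, k1⟩ * z * (g * ⟨k, k1⟩)⁻¹ = g * (⟨k, k1⟩ * z * (⟨k, k1⟩ : CC)⁻¹) * g⁻¹ := by group
  exact ⟨g * ⟨k, k1⟩, q, hq, by rw [r, e6], by rw [r, e40], by rw [r, eq]⟩

theorem ystd1 {a : CC} (ha : a ∈ YY) : ∃ l, a = l * pr tt [6] * l⁻¹ :=
  let ⟨l, _, e⟩ := t0Y.prim.trans (tt_mem (a := 6) (by decide +kernel)) ha; ⟨l, by simp [e]⟩

theorem ystd2 {a b : CC} (ha : a ∈ YY) (hb : b ∈ Dx YY a) : ∃ l, a * b = l * pr tt [6, 40] * l⁻¹ :=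
  let ⟨l, _, e, e'⟩ := t0Y.prim.trans_comm (tt_mem (a := 6) (by decide +kernel)) (tt_dx (a := 6) (b := 40) (by decide +kernel)) ha hb
  ⟨l, by rw [← e, ← e', conj_mul]; simp⟩

theorem ystd3 {a b c : CC} (ha : a ∈ YY) (hb : b ∈ Dx YY a) (hc : c ∈ Dx (Dx YY a) b) :
    ∃ l, a * b * c = z0 * (l * pr tt [6, 40] * l⁻¹) ∨ a * b * c = l * pr tt [6, 40, 43] * l⁻¹ := by
  obtain ⟨l, q, hq, rfl, rfl, rfl⟩ := tri ha hb hc
  rw [conj_mul, conj_mul, show tt 6 * tt 40 * tt q = pr tt [6, 40, q] by simp [mul_assoc]]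
  have k (u v : ℕ) (h : (ok0 u ∧ ok0 v ∧ v ≠ u ∧ F.pt u v = v) ∧ (∀ a ∈ [6, 40, q], ok0 a) ∧ (∀ a ∈ [u, v], ok0 a) ∧
      F.ext.eqOK (tw [6, 40, q]) (tw [0, u, v]) = true) : ∃ m, l * pr tt [6, 40, q] * l⁻¹ = z0 * (m * pr tt [6, 40] * m⁻¹) := by
    obtain ⟨m, e⟩ := ystd2 (tt_mem h.1.1) (tt_dx h.1)
    exact ⟨l * m, by rw [tt_eqz h.2, conj_z0, pr_cons, pr_cons, pr_nil, mul_one, e]; group⟩
  simp only [List.mem_cons, List.not_mem_nil, or_false] at hq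
  rcases hq with rfl | rfl | rfl | rfl
  exacts [(k 3399 3400 (by decide +kernel)).imp fun _ => .inl, (k 154 3400 (by decide +kernel)).imp fun _ => .inl,
    (k 154 3399 (by decide +kernel)).imp fun _ => .inl, ⟨l, .inr rfl⟩]

theorem lift0 {y : Γ} (hy : y ∈ DG) (c : Commute (τ 0) y) : ∃ y' : CC, ↑y' = y ∧ (y' = z0 ∨ y' ∈ YY) :=
  (em (y = τ 0)).elim (fun e => ⟨z0, e.symm, .inl rfl⟩) fun e => ⟨⟨y, subset_closure ⟨hy, e, c⟩⟩, rfl, .inr ⟨hy, e, c⟩⟩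

/-- `F24T.inv_in` writes `x` as a product of at most 3 commuting points of `DG`; they commute with `τ 0` (`k6_two`, `k6_three` for `t1.prim`); use `trans`, `trans_comm`, `tri`;
`[6,40,154,3399,3400]` has the value `z0`. -/
theorem inv_std {x : CC} (h : x * x = 1) :
    x = 1 ∨ x = z0 ∨ ∃ l, ∃ w ∈ W3, x = l * pr tt w * l⁻¹ ∨ x = z0 * (l * pr tt w * l⁻¹) := by
  obtain ⟨π, l, hl, e⟩ := inv_in (C0_I x.2) (congrArg Subtype.val h)
  have c := C0_comm x.2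
  have n : Nrm DG π := nrm_of_mem (fun _ => has.conj_mem π) fun _ => has.conj_mem π⁻¹
  have m0 := has.mem (a := 0) (by decide)
  have d (a b : ℕ) (h : a < 3510 ∧ b < 3510 ∧ b ≠ a ∧ F.pt a b = b) : π * τ b * π⁻¹ ∈ Dx DG (π * τ a * π⁻¹) :=
    dx_conj n ⟨has.mem h.2.1, fun e => h.2.2.1 (τ_inj h.2.1 h.1 e), ps.commute h.1 h.2.1 h.2.2.2⟩
  have d1 := d 0 6 (by decide +kernel)
  have d2 := d 0 40 (by decide +kernel)
  have d3 := d 6 40 (by decide +kernel)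
  have w1 : [6] ∈ W3 := by decide
  have w2 : [6, 40] ∈ W3 := by decide
  have w3 : [6, 40, 43] ∈ W3 := by decide
  have D {a b : CC} (hb : b ∈ YY) (h : (b : Γ) ∈ Dx DG a) : b ∈ Dx YY a := ⟨hb, fun e => h.2.1 (congrArg _ e), Subtype.ext h.2.2⟩
  simp only [List.mem_cons, List.not_mem_nil, or_false] at hl
  rcases hl with rfl | rfl | rfl | rfl
  · exact .inl (Subtype.ext (by simpa using e))
  · rw [pr_cons, pr_nil, mul_one] at e
    obtain ⟨a, ea, ha⟩ := lift0 (n.mem m0) (e ▸ c)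
    obtain rfl : x = a := Subtype.ext (e.trans ea.symm)
    exact .inr (ha.imp_right fun ha => let ⟨l, e⟩ := ystd1 ha; ⟨l, _, w1, .inl e⟩)
  · rw [pr_cons, pr_cons, pr_nil, mul_one, ← conj_mul] at e
    obtain ⟨c1, c2⟩ := k6_two t1.prim.toFS (n.mem m0) d1 m0 (e ▸ c)
    obtain ⟨a, ea, ha⟩ := lift0 (n.mem m0) c1
    obtain ⟨b, eb, hb⟩ := lift0 d1.1 c2
    rw [← ea, ← eb] at e d1
    obtain rfl : x = a * b := Subtype.ext e
    refine .inr (.inr ?_)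
    rcases ha with rfl | ha <;> rcases hb with rfl | hb
    · exact absurd rfl d1.2.1
    · exact let ⟨l, e⟩ := ystd1 hb; ⟨l, _, w1, .inr (congrArg _ e)⟩
    · exact let ⟨l, e⟩ := ystd1 ha; ⟨l, _, w1, .inr ((z0_comm a).eq.symm.trans (congrArg _ e))⟩
    · exact let ⟨l, e⟩ := ystd2 ha (D hb d1); ⟨l, _, w2, .inl e⟩
  · rw [pr_cons, pr_cons, pr_cons, pr_nil, mul_one, ← mul_assoc (τ 0), ← conj_mul, ← conj_mul] at e
    obtain ⟨c1, c2, c3⟩ := k6_three t1.prim.toFS (n.mem m0) d1 ⟨d2, d3.2⟩ m0 (e ▸ c)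
    obtain ⟨a, ea, ha⟩ := lift0 (n.mem m0) c1
    obtain ⟨b, eb, hb⟩ := lift0 d1.1 c2
    obtain ⟨c, ec, hc⟩ := lift0 d2.1 c3
    rw [← ea, ← eb] at d1
    rw [← ea, ← ec] at d2
    rw [← eb, ← ec] at d3
    rw [← ea, ← eb, ← ec] at e
    obtain rfl : x = a * b * c := Subtype.ext e
    refine .inr (.inr ?_)
    rcases ha with rfl | ha
    · exact let ⟨l, e⟩ := ystd2 (hb.resolve_left fun e => d1.2.1 (congrArg _ e)) (D (hc.resolve_left fun e => d2.2.1 (congrArg _ e)) d3)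
        ⟨l, _, w2, .inr (by rw [mul_assoc, e])⟩
    rcases hb with rfl | hb
    · exact let ⟨l, e⟩ := ystd2 ha (D (hc.resolve_left fun e => d3.2.1 (congrArg _ e)) d2)
        ⟨l, _, w2, .inr (by rw [← (z0_comm a).eq, mul_assoc, e])⟩
    rcases hc with rfl | hc
    · exact let ⟨l, e⟩ := ystd2 ha (D hb d1); ⟨l, _, w2, .inr (by rw [← (z0_comm _).eq, e])⟩
    obtain ⟨l, e | e⟩ := ystd3 ha (D hb d1) ⟨D hc d2, (D hc d3).2⟩
    exacts [⟨l, _, w2, .inr e⟩, ⟨l, _, w3, .inl e⟩]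

/-- `CC` is perfect since `YY` is one class and the heptad `[6,40,43,47,154,155,637]` has the value 1. -/
theorem perf : Group.IsPerfect CC := by
  have k {y : CC} (hy : y ∈ YY) : Abelianization.of y = Abelianization.of (tt 6) := by
    obtain ⟨l, rfl⟩ := ystd1 hy
    simp
  have o : ∀ a ∈ [6, 40, 43, 47, 154, 155, 637], ok0 a := by decide +kernel
  have e := congrArg Abelianization.of (tt_eq (u := [6, 40, 43, 47, 154, 155, 637]) (v := []) ⟨o, by simp, by decide +kernel⟩)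
  have s := congrArg Abelianization.of (pst.sq 6 (o 6 (by simp)))
  simp only [pr_cons, pr_nil, map_mul, map_one, mul_one, k (tt_mem (o 40 (by simp))), k (tt_mem (o 43 (by simp))), k (tt_mem (o 47 (by simp))),
    k (tt_mem (o 154 (by simp))), k (tt_mem (o 155 (by simp))), k (tt_mem (o 637 (by simp)))] at e s
  simp only [s, mul_one] at e
  exact ⟨eq_top_iff.2 (topY.ge.trans ((closure_le _).2 fun y hy => Abelianization.ker_of CC ▸ (k hy).trans e))⟩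

/-- `exists_cov`, `Fischer.dbl_u6` (field `nsq`). -/
theorem fu_nsq (x : CC) : x * x ≠ z0 := fun e =>
  let ⟨_, C⟩ := exists_cov; let ⟨_, _, D, _⟩ := dbl_u6 C perf card_F4 (MulEquiv.refl _); D.nsq ⟨x, e.symm⟩

theorem q_of {x : CC} (v : List ℕ) (hx : (x : Γ) = pr τ v) (ws : List (List ℕ)) (h : (∀ w ∈ ws, (∀ a ∈ w, ok0 a) ∧
    F.ext.eqOK (tw (w ++ w)) (tw []) = true ∧ F.ext.eqOK (tw (v ++ w)) (tw (w ++ v)) = true) ∧
    F.ext.eqOK (tw (ws.flatten ++ ws.flatten)) (tw v) = true) : Q x := by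
  refine ⟨pr tt ws.flatten, ?_, Subtype.ext ?_⟩
  · have := h.1
    clear h
    induction ws with
    | nil => exact one_mem _
    | cons w ws ih =>
      obtain ⟨⟨p, q, r⟩, s⟩ := List.forall_mem_cons.1 this
      rw [List.flatten_cons, pr_append]
      exact mul_mem (subset_closure ⟨Subtype.ext (by rw [coe_mul, pr_coe p, ← pr_append, pr_eq q]; rfl),
        Subtype.ext (by rw [coe_mul, coe_mul, pr_coe p, hx, ← pr_append, pr_eq r, pr_append])⟩) (ih s)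
  · rw [coe_mul, pr_coe fun a m => let ⟨w, p, q⟩ := List.mem_flatten.1 m; (h.1 w p).1 a q, ← pr_append, pr_eq h.2, hx]

theorem z0_pr {w : List ℕ} (h : ∀ a ∈ w, ok0 a) : ((z0 * pr tt w : CC) : Γ) = pr τ (0 :: w) := by rw [coe_mul, pr_coe h, pr_cons]; rfl

theorem cj_isConj (l x : CC) : IsConj x (l * x * l⁻¹) := isConj_iff.2 ⟨l, rfl⟩

/-- roots as products of involutions (tools/u6/data1.py): `z·6 = r²`, `r = [2245,106]·[2379]·[1915]`; `6·40`: `[602,603]·[66,40]`; `z·6·40`: `[70,66]·[172,434]` -/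
theorem fu_q1 : ∀ y ∈ YY, Q (z0 * y) := fun y hy => by
  obtain ⟨l, rfl⟩ := ystd1 hy
  rw [← conj_z0]
  exact (q_of _ (z0_pr (by decide +kernel)) [[2245, 106], [2379], [1915]] (by decide +kernel)).isConj (cj_isConj _ _)

theorem fu_q2 : ∀ a ∈ YY, ∀ b ∈ Dx YY a, Q (a * b) ∧ Q (z0 * (a * b)) := fun a ha b hb => by
  obtain ⟨l, e⟩ := ystd2 ha hb
  rw [e, ← conj_z0]
  exact ⟨(q_of _ (pr_coe (by decide +kernel)) [[602, 603], [66, 40]] (by decide +kernel)).isConj (cj_isConj _ _),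
    (q_of _ (z0_pr (by decide +kernel)) [[70, 66], [172, 434]] (by decide +kernel)).isConj (cj_isConj _ _)⟩

theorem Tr.conj {x : CC} (h : Tr z0 YY x) (l : CC) : Tr z0 YY (l * x * l⁻¹) := by
  obtain ⟨h1, a, ha, b, hb, c, hc, e, k, k1, k2, k3⟩ := h
  have i {u v : CC} (h : IsConj u v) : IsConj (l * u * l⁻¹) (l * v * l⁻¹) := ((cj_isConj l u).symm.trans h).trans (cj_isConj l v)
  have r : l * k * l⁻¹ * (l * a * l⁻¹) * (l * k * l⁻¹)⁻¹ = l * (k * a * k⁻¹) * l⁻¹ := by group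
  exact ⟨conj_z0 l x ▸ i h1, _, (nrmY l).mem ha, _, dx_conj (nrmY l) hb, _, ⟨dx_conj (nrmY l) hc.1, (dx_conj (nrmY l) ⟨hc.1.1, hc.2⟩).2⟩,
    by rw [e, conj_mul, conj_mul], l * k * l⁻¹, (commute_conj_iff l _ _).2 k1, r ▸ dx_conj (nrmY l) k2, by
      rw [r, conj_mul, conj_mul]; exact i k3⟩

theorem tt_cj (k u v : List ℕ) (h : (∀ a ∈ k ++ u, ok0 a) ∧ (∀ a ∈ v ++ k, ok0 a) ∧ F.ext.eqOK (tw (k ++ u)) (tw (v ++ k)) = true) :
    pr tt k * pr tt u * (pr tt k)⁻¹ = pr tt v := by rw [← pr_append, tt_eq h, pr_append, mul_inv_cancel_right]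

theorem tr_z : ∃ l, l * pr tt [6, 40, 43] * l⁻¹ = z0 * pr tt [6, 40, 43] :=
  ⟨pr tt [1412, 1435, 88, 2245, 28, 544, 64, 544, 1366, 1402], by
    rw [← pr_append, tt_eqz (v := [6, 40, 43] ++ [1412, 1435, 88, 2245, 28, 544, 64, 544, 1366, 1402]) (by decide +kernel), pr_append,
      ← mul_assoc, mul_inv_cancel_right]⟩

theorem tr_std : Tr z0 YY (pr tt [6, 40, 43]) := by
  have e := tt_cj [3270, 335, 1250, 1263, 88, 2245, 1412, 1435] [6] [2609] (by decide +kernel)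
  rw [pr_cons tt 6, pr_cons tt 2609, pr_nil, mul_one, mul_one] at e
  refine ⟨isConj_iff.2 tr_z, tt 6, tt_mem (by decide +kernel), tt 40, tt_dx (by decide +kernel), tt 43, tt_dx2 (by decide +kernel),
    by simp [mul_assoc], _, mul_inv_eq_iff_eq_mul.1 (tt_cj [3270, 335, 1250, 1263, 88, 2245, 1412, 1435] _ _ (by decide +kernel)),
    e.symm ▸ tt_dx (a := 6) (b := 2609) (by decide +kernel), ?_⟩
  rw [e]
  exact isConj_iff.2 ⟨_, (tt_cj [1437, 2628, 774, 1395, 1437, 2628] _ [6, 40, 43, 6, 2609] (by decide +kernel)).trans (by simp [mul_assoc])⟩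

/-- `Tr` is invariant under conjugation.  For `x = [6,40,43]` (tools/u6/data2.py): `k = [3270,335,1250,1263,88,2245,1412,1435]` maps `6 ↦ 2609`, `[1437,2628,774,1395,1437,2628]` conjugates
`x` to `[40,43,2609]`, `[1412,1435,88,2245,28,544,64,544,1366,1402]` conjugates `x` to `z0 * x`. -/
theorem fu_inv (x : CC) (h : x * x = 1) : x = 1 ∨ x = z0 ∨ x ∈ YY ∨ Q x ∨ Tr z0 YY x := by
  refine (inv_std h).imp_right (.imp_right ?_)
  rintro ⟨l, w, m, e⟩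
  have y := (nrmY l).mem (tt_mem (a := 6) (by decide +kernel))
  have q := fu_q2 _ y _ (dx_conj (nrmY l) (tt_dx (a := 6) (b := 40) (by decide +kernel)))
  rw [conj_mul] at q
  simp only [W3, List.mem_cons, List.not_mem_nil, or_false] at m
  rcases m with rfl | rfl | rfl <;> rcases e with rfl | rfl
  · exact .inl (by simpa using y)
  · exact .inr (.inl (by simpa using fu_q1 _ y))
  · exact .inr (.inl (by simpa using q.1))
  · exact .inr (.inl (by simpa using q.2))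
  · exact .inr (.inr (tr_std.conj l))
  · obtain ⟨k, e⟩ := tr_z
    rw [← conj_z0, ← e]
    exact .inr (.inr ((tr_std.conj k).conj l))

/-- conjugate `a` to `tt 6`; line `[6,40,154,3399,3400] = z0`, heptad `z0 · [6,40,43,47,59,472] = 1` -/
theorem fu_par : ∀ a ∈ YY, ∀ B : Subgroup CC, a ∈ B → (∀ b ∈ Dx YY a, ∀ c ∈ Dx YY a, b * c ∈ B) → z0 ∈ B ∧ ∀ b ∈ Dx YY a, b ∈ B := by
  intro a ha B m h
  obtain ⟨l, -, rfl⟩ := t0Y.prim.trans (tt_mem (a := 6) (by decide +kernel)) ha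
  have d (b : ℕ) (p : ok0 6 ∧ ok0 b ∧ b ≠ 6 ∧ F.pt 6 b = b) := dx_conj (nrmY l) (tt_dx p)
  have k (b c : ℕ) (p : (ok0 6 ∧ ok0 b ∧ b ≠ 6 ∧ F.pt 6 b = b) ∧ ok0 6 ∧ ok0 c ∧ c ≠ 6 ∧ F.pt 6 c = c) := h _ (d b p.1) _ (d c p.2)
  have z : z0 ∈ B := by
    have := mul_mem m (mul_mem (k 40 154 (by decide +kernel)) (k 3399 3400 (by decide +kernel)))
    have e := tt_eqz (u := [6, 40, 154, 3399, 3400]) (v := []) (by decide +kernel)
    simp only [pr_cons, pr_nil, mul_one] at e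
    rwa [conj_mul, conj_mul, conj_mul, conj_mul, mul_assoc (tt 40), e, z0_conj] at this
  have := mul_mem z (mul_mem m (mul_mem (k 43 47 (by decide +kernel)) (k 59 472 (by decide +kernel))))
  have e := tt_eqz (u := [40]) (v := [6, 43, 47, 59, 472]) (by decide +kernel)
  simp only [pr_cons, pr_nil, mul_one] at e
  rw [conj_mul, conj_mul, conj_mul, conj_mul, mul_assoc (tt 43), ← conj_z0, ← e] at this
  exact ⟨z, fun b hb => (mul_mem_cancel_right this).1 (h b hb _ (d 40 (by decide +kernel)))⟩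

end Cfsg.Lib.U6S
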