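import Cfsg.Agent.Lib.U6S.Cen

/-! # Uniqueness of `2·U₆(2)` (helper15, helper26) -/

set_option autoImplicit false
set_option maxRecDepth 100000

namespace Cfsg.Lib.U6S

open Subgroup Cfsg.Lib.Calc Cfsg.Lib.Fi Cfsg.Lib.Fi.M22 Cfsg.Lib.Fischer Cfsg.Lib.ThreeTr Cfsg.Lib.F24T Cfsg.Lib.F223
open MulAut (conj)

/-- the last relator of `U6` -/
def lastR : W := U6.ext.getD 4 (.l 0)

/-- letters that satisfy all relators of `U6` but the last one, whose value is `d` -/
structure Sd {H : Type*} [Group H] (γ : ℕ → H) (d : H) : Prop where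
  lab : Lab γ U6.iv
  rel : ∀ w ∈ U6.cox ++ U6.ext.take 4, w.ev γ = 1
  last : lastR.ev γ = d

section

variable {H H' G : Type*} [Group H] [Group H'] [Group G] {γ : ℕ → H} {γ' : ℕ → H'} {d : H} {d' : H'}

theorem Sd.hom (S : Sd γ d) (f : H →* G) (hf : f d = 1) : ∃ φ : U6 →* G, ∀ c, φ (U6.gam c) = f (γ c) :=
  U6.data.exists_hom (S.lab.map f) fun w hw => by
    rw [show U6.cox ++ U6.ext = (U6.cox ++ U6.ext.take 4) ++ [lastR] from (List.append_assoc U6.cox (U6.ext.take 4) [lastR]).symm, List.mem_append,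
      List.mem_singleton] at hw
    rw [← W.map_ev]
    rcases hw with hw | rfl
    · rw [S.rel w hw, map_one]
    · rw [S.last, hf]

theorem ev_mem_range (γ : ℕ → H) (w : W) : w.ev γ ∈ closure (Set.range γ) := by
  have e : _ = w.ev γ := W.map_ev (closure (Set.range γ)).subtype (fun c => ⟨γ c, subset_closure ⟨c, rfl⟩⟩) w
  exact e ▸ Subtype.property _

theorem Sd.prod (S : Sd γ d) (S' : Sd γ' d') : Sd (fun c => (γ c, γ' c)) (d, d') :=
  ⟨S.lab.prod S'.lab, fun w hw => by rw [W.ev_prod, S.rel w hw, S'.rel w hw]; rfl, by rw [W.ev_prod, S.last, S'.last]⟩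

theorem Sd.map_range (f : H →* G) {φ : U6 →* G} (k : ∀ c, φ (U6.gam c) = f (γ c)) : (closure (Set.range γ)).map f = φ.range := by
  rw [MonoidHom.range_eq_map, ← U6.closure_gam, MonoidHom.map_closure, MonoidHom.map_closure, ← Set.range_comp, ← Set.range_comp]
  exact congrArg (fun x => Subgroup.closure (Set.range x)) (funext k).symm

theorem Sd.top (S : Sd γ d) {π : H →* UU} (C : Fischer.Cov π d) (h : π (γ 1) ≠ 1) : closure (Set.range γ) = ⊤ := by
  have := U6.simple
  obtain ⟨φ, k⟩ := S.hom π C.map_d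
  have i : Function.Injective φ := (MonoidHom.ker_eq_bot_iff φ).1 ((φ.normal_ker.eq_bot_or_eq_top).resolve_right fun e =>
    h ((k 1).symm.trans (e.ge (mem_top _))))
  have s := (i.bijective_of_nat_card_le (uu_card.trans U6.card.symm).le).2
  refine eq_top_iff.2 fun x _ => ?_
  obtain ⟨y, m, e⟩ : π x ∈ (closure (Set.range γ)).map π := by rw [Sd.map_range π k]; exact s _
  rcases C.eq_or e.symm with rfl | rfl
  exacts [m, mul_mem (S.last ▸ ev_mem_range γ _) m]

theorem Sd.iso (S : Sd γ d) (S' : Sd γ' d') {π : H →* UU} {π' : H' →* UU} (C : Fischer.Cov π d) (C' : Fischer.Cov π' d')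
    (h : π (γ 1) ≠ 1) (h' : π' (γ' 1) ≠ 1) : ∃ e : H ≃* H', e d = d' := by
  have c := C.card
  have c' := C'.card
  rw [uu_card] at c c'
  have : Finite H := Nat.finite_of_card_ne_zero (by omega)
  have : Finite H' := Nat.finite_of_card_ne_zero (by omega)
  have hc : ∀ x, Commute (d, d') x := fun x => Prod.ext (C.cen x.1) (C'.cen x.2)
  have : (zpowers (d, d')).Normal := ⟨fun _ ⟨i, e⟩ g => ⟨i, by
    rw [← e]; exact (((hc g).zpow_left i).symm.mul_inv_cancel).symm⟩⟩
  obtain ⟨φ, k⟩ := (S.prod S').hom (QuotientGroup.mk' (zpowers (d, d'))) ((QuotientGroup.eq_one_iff _).2 (mem_zpowers _))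
  have r := Sd.map_range _ k
  have m := (S.prod S').last ▸ ev_mem_range (fun c => (γ c, γ' c)) lastR
  have p1 : (closure (Set.range fun c => (γ c, γ' c))).map (MonoidHom.fst H H') = ⊤ := by
    rw [MonoidHom.map_closure, ← Set.range_comp]; exact S.top C h
  have p2 : (closure (Set.range fun c => (γ c, γ' c))).map (MonoidHom.snd H H') = ⊤ := by
    rw [MonoidHom.map_closure, ← Set.range_comp]; exact S'.top C' h'
  generalize closure (Set.range fun c => (γ c, γ' c)) = Δ at r m p1 p2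
  have c1 : Nat.card Δ ≤ 2 * 9196830720 := by
    rw [← ((QuotientGroup.mk' (zpowers (d, d'))).ker.subgroupOf Δ).card_mul_index, ← relIndex, relIndex_ker, r, QuotientGroup.ker_mk']
    refine Nat.mul_le_mul ((Nat.le_of_dvd Nat.card_pos (card_comap_dvd_of_injective _ _ Δ.subtype_injective)).trans ?_)
      (U6.card ▸ Nat.card_le_card_of_surjective _ φ.rangeRestrict_surjective)
    rw [Nat.card_zpowers]
    exact orderOf_le_of_pow_eq_one two_pos (by rw [sq]; exact Prod.ext C.sq C'.sq)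
  have s1 : Function.Surjective ((MonoidHom.fst H H').comp Δ.subtype) := fun x =>
    let ⟨y, a, b⟩ := p1.ge (mem_top x); ⟨⟨y, a⟩, b⟩
  have s2 : Function.Surjective ((MonoidHom.snd H H').comp Δ.subtype) := fun x =>
    let ⟨y, a, b⟩ := p2.ge (mem_top x); ⟨⟨y, a⟩, b⟩
  let e1 := MulEquiv.ofBijective _ (s1.bijective_of_nat_card_le (c1.trans c.ge))
  let e2 := MulEquiv.ofBijective _ (s2.bijective_of_nat_card_le (c1.trans c'.ge))
  have a1 : e1.symm d = ⟨_, m⟩ := e1.symm_apply_eq.2 rfl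
  exact ⟨e1.symm.trans e2, by rw [MulEquiv.trans_apply, a1]; rfl⟩

/-- the finite checks for a choice of letters -/
abbrev Dt (L hp h1 h2 : List ℕ) : Prop := L.length = 8 ∧ (∀ a ∈ L ++ hp ++ h1 ++ h2, ok0 a) ∧ Odd hp.length ∧ Even h1.length ∧
  Even h2.length ∧ (∀ w ∈ U6.cox, chk F.pt (wrd L w) [] = true) ∧
  chk F.pt (wrd L (U6.ext.getD 0 (.l 0)) ++ wrd L (U6.ext.getD 0 (.l 0)) ++ wrd L (U6.ext.getD 0 (.l 0))) [] = true ∧
  chk F.pt (wrd L (U6.ext.getD 1 (.l 0))) [] = true ∧ chk F.pt (wrd L (U6.ext.getD 2 (.l 0))) (hp ++ h1) = true ∧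
  chk F.pt (wrd L (U6.ext.getD 3 (.l 0))) hp = true ∧ chk F.pt (wrd L lastR) h2 = true ∧
  bor (F.oneOK (tw (wrd L (U6.ext.getD 0 (.l 0))))) (F.eqOK (tw (wrd L (U6.ext.getD 0 (.l 0)))) (.l 0)) = true ∧
  bor (F.oneOK (tw hp)) (F.eqOK (tw hp) (.l 0)) = true

variable {π : H →* UU} {s : ℕ → H} {L hp h1 h2 : List ℕ}

/-- the labelling of a cover -/
structure Lb (π : H →* UU) (s : ℕ → H) : Prop where
  ps : PS s ok0 F.pt
  one : ∀ l, (∀ a ∈ l, ok0 a) → bor (F.oneOK (tw l)) (F.eqOK (tw l) (.l 0)) = true → π (pr s l) = 1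
  ne : ∀ a, ok0 a → π (s a) ≠ 1

theorem pr_mul (C : Fischer.Cov π d) (l : List ℕ) : pr (fun a => d * s a) l = d ^ l.length * pr s l := by
  induction l with
  | nil => simp
  | cons a l ih => rw [pr_cons, pr_cons, ih, List.length_cons, pow_succ', mul_assoc, mul_assoc, ← mul_assoc (s a),
      ← ((C.cen (s a)).pow_left _).eq, mul_assoc]

theorem Lb.mul (C : Fischer.Cov π d) (B : Lb π s) : Lb π fun a => d * s a := by
  have e : ∀ x y, d * x * (d * y) = x * y := fun x y => by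
    rw [mul_assoc, ← mul_assoc x, ← (C.cen x).eq, ← mul_assoc, ← mul_assoc, C.sq, one_mul]
  refine ⟨⟨fun a p => (e _ _).trans (B.ps.sq a p), B.ps.cl, fun a b p q => ?_⟩, fun l p q => ?_, fun a p => ?_⟩
  · rw [e, ← mul_assoc, ← (C.cen _).eq, mul_assoc, B.ps.cj a b p q]
  · rw [pr_mul C, map_mul, map_pow, C.map_d, one_pow, one_mul, B.one l p q]
  · rw [map_mul, C.map_d, one_mul]; exact B.ne a p

theorem Lb.sd0 (C : Fischer.Cov π d) (B : Lb π s) (D : Dt L hp h1 h2) (k : pr s hp = 1) (k1 : pr s h1 = 1) :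
    ∃ γ, Sd γ (pr s h2) ∧ π (γ 1) ≠ 1 := by
  obtain ⟨d0, d1, -, -, -, d2, d3, d4, d5, d6, d7, d8, -⟩ := D
  simp only [List.forall_mem_append] at d1
  obtain ⟨⟨⟨hL, a1⟩, a2⟩, a3⟩ := d1
  have S := B.ps
  have o := fun w a (ha : a ∈ wrd _ w) => hL a (mem_of_wrd ha)
  refine ⟨fun c => pr s (let1 L c), ⟨S.lab hL (d0 ▸ U6.invTab), fun w hw => (S.ev_let1 hL w).trans ?_,
    (S.ev_let1 hL _).trans (S.chk (o _) a3 d7)⟩, ?_⟩
  · rw [show U6.ext.take 4 = [U6.ext.getD 0 (.l 0), U6.ext.getD 1 (.l 0), U6.ext.getD 2 (.l 0), U6.ext.getD 3 (.l 0)] from rfl]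
      at hw
    simp only [List.mem_append, List.mem_cons, List.not_mem_nil, or_false] at hw
    rcases hw with hw | rfl | rfl | rfl | rfl
    · exact S.chk (v := []) (o w) (by simp) (d2 w hw)
    · refine C.eq_one_of_cube (B.one _ (o _) d8) ?_
      rw [← pr_append, ← pr_append]
      exact S.chk (v := []) (by simp only [List.forall_mem_append]; exact ⟨⟨o _, o _⟩, o _⟩) (by simp) d3
    · exact S.chk (v := []) (o _) (by simp) d4
    · rw [S.chk (o _) (List.forall_mem_append.2 ⟨a1, a2⟩) d5, pr_append, k, k1, mul_one]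
    · exact (S.chk (o _) a1 d6).trans k
  · obtain _ | ⟨a, L⟩ := L
    · simp at d0
    · exact fun e => B.ne a (hL a List.mem_cons_self) ((congrArg π (mul_one _)).symm.trans e)

theorem Lb.sd (C : Fischer.Cov π d) (B : Lb π s) (D : Dt L hp h1 h2) (k1 : pr s h1 = 1) :
    ∃ γ, Sd γ (pr s h2) ∧ π (γ 1) ≠ 1 := by
  have ev : ∀ l : List ℕ, Even l.length → pr (fun a => d * s a) l = pr s l := fun l ⟨i, e⟩ => by
    rw [pr_mul C, e, ← two_mul, pow_mul, sq, C.sq, one_pow, one_mul]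
  rcases (C.ker _).1 (B.one hp (fun a m => D.2.1 a (by simp [m])) D.2.2.2.2.2.2.2.2.2.2.2.2) with k | k
  · exact B.sd0 C D k k1
  · exact ev h2 D.2.2.2.2.1 ▸ (B.mul C).sd0 C D (by rw [pr_mul C, k, C.pow_odd C.map_d D.2.2.1, C.sq]) ((ev h1 D.2.2.2.1).trans k1)

theorem dt1 : Dt [6, 16, 40, 88, 154, 43, 92, 472] [6, 40, 43, 47, 154, 155, 637] [40, 43, 154, 424, 427, 472]
    [6, 40, 43, 47, 59, 472] := by decide +kernel

theorem dt2 : Dt [154, 185, 6, 44, 40, 47, 308, 59] [154, 6, 47, 427, 40, 1734, 2609] [6, 47, 40, 43, 472, 59]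
    [154, 6, 47, 427, 424, 59] := by decide +kernel

theorem dt3 : Dt [40, 62, 154, 45, 6, 427, 92, 424] [40, 154, 427, 472, 6, 434, 637] [154, 427, 6, 47, 59, 424]
    [40, 154, 427, 472, 43, 424] := by decide +kernel

theorem Lb.std (C : Fischer.Cov π d) (hH : Group.IsPerfect H) (B : Lb π s) : ∃ γ, Sd γ d ∧ π (γ 1) ≠ 1 := by
  have S := B.ps
  have e1 : pr s [6, 47, 40, 43, 472, 59] = pr s [6, 40, 43, 47, 59, 472] := S.chk (by decide +kernel) (by decide +kernel) (by decide +kernel)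
  have e2 : pr s [40, 154, 427, 472, 43, 424] = pr s [40, 43, 154, 424, 427, 472] :=
    S.chk (by decide +kernel) (by decide +kernel) (by decide +kernel)
  have e3 : pr s [154, 6, 47, 427, 424, 59] = pr s ([40, 43, 154, 424, 427, 472] ++ [6, 40, 43, 47, 59, 472]) :=
    S.chk (by decide +kernel) (by decide +kernel) (by decide +kernel)
  have e4 : pr s [154, 427, 6, 47, 59, 424] = pr s ([40, 43, 154, 424, 427, 472] ++ [6, 40, 43, 47, 59, 472]) :=
    S.chk (by decide +kernel) (by decide +kernel) (by decide +kernel)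
  rw [pr_append] at e3 e4
  rcases (C.ker _).1 (B.one [40, 43, 154, 424, 427, 472] (by decide +kernel) (by decide +kernel)) with k1 | k1 <;>
    rcases (C.ker _).1 (B.one [6, 40, 43, 47, 59, 472] (by decide +kernel) (by decide +kernel)) with k2 | k2 <;>
    rw [k1, k2] at e3 e4
  · obtain ⟨γ, a, b⟩ := B.sd C dt1 k1
    have := U6.simple
    obtain ⟨φ, k⟩ := a.hom (MonoidHom.id H) k2
    exact absurd ((congrArg π ((k 1).symm.trans (C.not_split hH (U6.card.trans uu_card.symm) φ _))).trans (map_one π)) b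
  · exact k2 ▸ B.sd C dt1 k1
  · exact (e3.trans (mul_one d)) ▸ B.sd C dt2 (e1.trans k2)
  · exact (e2.trans k1) ▸ B.sd C dt3 (e4.trans C.sq)

theorem exists_lb (C : Fischer.Cov π d) : ∃ s, Lb π s := by
  obtain ⟨τ, h, T, -⟩ := fi22_has
  have := h.fin
  have T' := T.loc _ (h.mem (a := 0) (by decide))
  obtain ⟨φ, k⟩ := T'.ty.fiso
  have k' := k.trans (k.fs'.fiso_mk (k.nc T'.prim.nc))
  obtain ⟨e2, t, ht, -⟩ := U6.exists_iso (F := F4) rfl
  have hX : closure ((QuotientGroup.mk : SU 6 F4 2 → PSU 6 F4 2) '' suSet 6) = ⊤ := by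
    rw [← QuotientGroup.coe_mk', ← MonoidHom.map_closure, closure_suSet (by decide),
      map_top_of_surjective _ (QuotientGroup.mk'_surjective _)]
  have hZ := center_quot_eq_bot k.fs' (k.nc T'.prim.nc) (closure_suSet (by decide))
  have B := u6_bas h k' hX hZ (k'.prim T'.prim) fun x hx =>
    let ⟨l, l1, l2, l3⟩ := psu_invol (F := F4) rfl ht hx
    ⟨l, l1, fun s hs => ⟨let ⟨g, e⟩ := isConj_iff.1 (l2 s hs).1
      e ▸ (k'.fs'.nrm_of_mem_closure (hX ▸ mem_top g)).mem ⟨t, ht, rfl⟩, (l2 s hs).2⟩, l3⟩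
  have one := fun l => u6_rel h k' hX hZ (l := l)
  obtain ⟨σ, e', sec⟩ := C.lifts B.prim
    (B.clq (l := [40, 43, 154, 424, 427, 472]) (by decide +kernel) (by decide +kernel))
    (one _ (by decide +kernel) (by decide +kernel)) ⟨2, rfl⟩
    (B.clq (l := [6, 40, 43, 47, 154, 155, 637]) (by decide +kernel) (by decide +kernel))
    (one _ (by decide +kernel) (by decide +kernel)) ⟨3, rfl⟩
  exact ⟨_, e'.ps B.ps B.mem, fun l p q => (B.map_pr sec p).trans (one l p q), fun a p e =>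
    TS.ne_one B.prim.ts (B.mem a p) ((sec _ (B.mem a p)).symm.trans e)⟩

end

theorem pr_ι {l : List ℕ} (h : ∀ a ∈ l, ok0 a) : pr τ l = ι (pr τ0 l) := by
  induction l with
  | nil => exact (map_one ι).symm
  | cons a l ih => rw [pr_cons, pr_cons, map_mul, ih fun b m => h b (by simp [m]), ext.tau a (h a (by simp)).1]

theorem lb_CC {π : CC →* UU} (C : Fischer.Cov π z0) : Lb π tt := by
  refine ⟨pst, fun l p q => (C.ker _).2 ?_, fun a p e => ?_⟩
  · have e := (pr_coe p).trans (pr_ι p)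
    rw [pr, pr, ← ev_tw τ0] at e
    rcases bor_eq_true.1 q with k | k
    · exact .inl (Subtype.ext (e.trans (by rw [ext.has0.one k, map_one]; rfl)))
    · exact .inr (Subtype.ext (e.trans (by rw [ext.has0.eq k]; exact ext.tau 0 (by decide))))
  · rcases (C.ker _).1 e with k | k
    · exact TS.ne_one t0Y.prim.ts (tt_mem p) k
    · exact p.2.1 (τ_inj p.1 (by decide) ((tt_coe p).symm.trans (congrArg Subtype.val k)))

theorem std_CC {π : CC →* UU} (C : Fischer.Cov π z0) : ∃ γ, Sd γ z0 ∧ π (γ 1) ≠ 1 := by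
  have := (lb_CC C).sd C dt1 (tt_eq (v := []) (by decide +kernel))
  rwa [tt_eqz (v := []) (by decide +kernel), pr_nil, mul_one] at this

/-- Labelling `s a = σ (φ (τ0 a))` of `H` as in `F223.dbl_uu`/`Fischer.u6_dbl` (`PS s ok0 F.pt`; `(d ^ i * s ·)` is again `PS`).  With `HX = [40,43,154,424,427,472]`,
`K2 = [6,40,43,47,59,472]` the values `(k1, k2)` lie in `{1, d}` and are not `(1, 1)` (end of `u6_dbl`); `k1 * k2` is the value of `[154,424,427,6,47,59]` (`chk`).
For (letters, heptad, H1, H2) =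
`([6,16,40,88,154,43,92,472], [6,40,43,47,154,155,637], HX, K2)` (case `(1,d)`, and the model `tt`, where the values are `1, 1, z0`),
`([154,185,6,44,40,47,308,59], [154,6,47,427,40,1734,2609], [6,47,40,43,472,59], [154,6,47,427,424,59])` (case `(d,1)`),
`([40,62,154,45,6,427,92,424], [40,154,427,472,6,434,637], [154,427,6,47,59,424], [40,154,427,472,43,424])` (case `(d,d)`)
`chk` gives for the relators of `Calc.U6` (`wrd letters w`): `cox ↦ 1`, `ext ↦ (cube = 1, so 1 by u6_rel + eq_one_of_cube), 1, heptad·H1, heptad, H2` (tools/u6/delta.py);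
normalise heptad `= 1` by `d ^ i`.  So both groups have letters `γ` with all relators 1 except the last one, which is `z0` resp. `d`.  In `(CC × H) ⧸ ⟨(z0, d)⟩` all relators hold:
`U6.data.exists_hom` gives `φ`; the preimage `Δ ≤ CC × H` of its range has order `≤ 2 |U6|`, both projections are onto (`U6` simple, `card_CC`, `exists_cov`), so bijective. -/
theorem exists_iso {H : Type*} [Group H] {π : H →* UU} {d : H} (C : Fischer.Cov π d) (hH : Group.IsPerfect H) :
    ∃ e : CC ≃* H, e z0 = d := by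
  obtain ⟨π0, C0⟩ := exists_cov
  obtain ⟨γ, a, b⟩ := std_CC C0
  obtain ⟨s, B⟩ := exists_lb C
  obtain ⟨γ', a', b'⟩ := B.std C hH
  exact a.iso a' C0 C b b'

end Cfsg.Lib.U6S
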