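import Cfsg.Agent.Lib.U6S.Def
import Cfsg.Agent.Lib.F24T.K

/-! # The centraliser of a standard subgroup `2·U₆(2)` has order two (helper15) -/

set_option autoImplicit false

namespace Cfsg.Lib.U6S

open Subgroup Cfsg.Lib.Fischer Cfsg.Lib.ThreeTr Cfsg.Lib.F24T
open MulAut (conj)

variable {J G : Type*} [Group J] [Group G] {z ξ : J} {Y : Set J} {d e g h k x : G} {ψ ψ' : J →* G} {α β : MulAut J}

/-- `g` induces `α` -/
def Ac (ψ : J →* G) (g : G) (α : MulAut J) : Prop := ∀ x, ψ (α x) = g * ψ x * g⁻¹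

/-- `k` centralises the image -/
def Ck (ψ : J →* G) (k : G) : Prop := ∀ x, Commute k (ψ x)

/-- `g` induces an inner automorphism -/
def Ig (ψ : J →* G) (g : G) : Prop := ∃ x, Ck ψ (g * (ψ x)⁻¹)

/-- the image of `ψ` is normalised by the centraliser of `d = ψ z` -/
structure Mo (z : J) (d : G) (ψ : J →* G) : Prop where
  inj : Function.Injective ψ
  zd : ψ z = d
  act : ∀ g, Commute d g → ∃ α, Ac ψ g α

/-- the conjugate embedding -/
def cψ (g : G) (ψ : J →* G) : J →* G := (conj g).toMonoidHom.comp ψ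

theorem cψ_apply (g : G) (ψ : J →* G) (x : J) : cψ g ψ x = g * ψ x * g⁻¹ := rfl

theorem Ac.mul (a : Ac ψ g α) (b : Ac ψ h β) : Ac ψ (g * h) (α * β) := fun x => by
  rw [MulAut.mul_apply, a, b]; group

theorem Ac.inn (ψ : J →* G) (x : J) : Ac ψ (ψ x) (conj x) := fun y => by simp

theorem Ac.inv (a : Ac ψ g α) : Ac ψ g⁻¹ α⁻¹ := fun x => by
  have := a (α⁻¹ x)
  rw [MulAut.apply_inv_self] at this
  rw [this]; group

theorem Ac.ck (a : Ac ψ g 1) : Ck ψ g := fun x => mul_inv_eq_iff_eq_mul.1 (a x).symm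

theorem Ck.ac (a : Ck ψ g) : Ac ψ g 1 := fun x => (a x).mul_inv_cancel.symm

theorem Ck.mul (a : Ck ψ g) (b : Ck ψ h) : Ck ψ (g * h) := fun x => (a x).mul_left (b x)

theorem Ck.inv (a : Ck ψ g) : Ck ψ g⁻¹ := fun x => (a x).inv_left

theorem Ck.ig (a : Ck ψ g) : Ig ψ g := ⟨1, by simpa using a⟩

theorem Ig.of (ψ : J →* G) (x : J) : Ig ψ (ψ x) := ⟨x, fun y => by simp⟩

theorem ck_cψ : Ck (cψ g ψ) (g * x * g⁻¹) ↔ Ck ψ x := forall_congr' fun _ => commute_conj_iff _ _ _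

theorem ig_cψ : Ig (cψ g ψ) (g * x * g⁻¹) ↔ Ig ψ x := exists_congr fun y => by rw [cψ_apply, conj_inv, conj_mul, ck_cψ]

theorem Ac.cj (a : Ac ψ g α) (c : Ck ψ k) : Ck ψ (g * k * g⁻¹) := fun x => by
  have := (commute_conj_iff g _ _).2 (c (α⁻¹ x))
  rwa [← a, MulAut.apply_inv_self] at this

theorem Ac.of (c : Ck ψ (g * (ψ ξ)⁻¹)) : Ac ψ g (conj ξ) := by simpa using c.ac.mul (Ac.inn ψ ξ)

namespace Mo

variable (M : Mo z d ψ)
include M

theorem cj (g : G) : Mo z (g * d * g⁻¹) (cψ g ψ) := ⟨(conj g).injective.comp M.inj, by rw [cψ_apply, M.zd], fun h c => by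
  obtain ⟨h, rfl⟩ := (conj g).surjective h
  obtain ⟨α, a⟩ := M.act h ((commute_conj_iff _ _ _).1 c)
  exact ⟨α, fun x => by rw [cψ_apply, a, cψ_apply, MulAut.conj_apply]; group⟩⟩

theorem uq (a : Ac ψ g α) (b : Ac ψ g β) : α = β := MulEquiv.ext fun x => M.inj ((a x).trans (b x).symm)

theorem ig (a : Ac ψ g α) : Ig ψ g ↔ In α :=
  ⟨fun ⟨x, c⟩ => ⟨x, M.uq a (.of c)⟩, fun ⟨x, e⟩ => ⟨x, Ac.ck (by simpa [e] using a.mul (Ac.inn ψ x).inv)⟩⟩

theorem dk (c : Ck ψ k) : Commute d k := M.zd ▸ (c z).symm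

theorem ck_cj (a : Commute d g) (c : Ck ψ k) : Ck ψ (g * k * g⁻¹) := let ⟨_, a⟩ := M.act g a; a.cj c

theorem ig_cj (a : Commute d g) (c : Ig ψ k) : Ig ψ (g * k * g⁻¹) :=
  let ⟨α, a⟩ := M.act g a; let ⟨x, c⟩ := c; ⟨α x, by rw [a, conj_inv, conj_mul]; exact a.cj c⟩

variable (U : Fu z Y)
include U

theorem sq : d * d = 1 := by rw [← M.zd, ← map_mul, U.z2, map_one]

theorem ne : d ≠ 1 := fun e => U.z1 (M.inj (by rw [M.zd, e, map_one]))

theorem ck : Ck ψ d := fun x => M.zd ▸ ((U.cen z).2 (.inr rfl) x).map ψ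

theorem cen (c : Ck ψ (ψ ξ)) : ξ = 1 ∨ ξ = z := (U.cen ξ).1 fun y => M.inj (by rw [map_mul, map_mul, (c y).eq])

theorem ig_mul (a : Commute d g) (b : Commute d h) (p : ¬ Ig ψ g) (q : ¬ Ig ψ h) : Ig ψ (g * h) :=
  let ⟨_, a⟩ := M.act g a; let ⟨_, b⟩ := M.act h b; (M.ig (a.mul b)).2 (U.two _ _ (mt (M.ig a).2 p) (mt (M.ig b).2 q))

omit U in
theorem ig_mul' (p : Ig ψ g) (q : Ig ψ h) : Ig ψ (g * h) :=
  let ⟨x, p⟩ := p; let ⟨y, q⟩ := q; (M.ig ((Ac.of p).mul (.of q))).2 ⟨x * y, (map_mul _ _ _).symm⟩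

theorem ig_sq (a : Commute d g) : Ig ψ (g * g) := (em _).elim (fun p => M.ig_mul' p p) fun p => M.ig_mul U a a p p

theorem inv (p : Ig ψ g) (g2 : g * g = 1) : Ck ψ g ∨ ∃ ξ, ξ * ξ = 1 ∧ ξ ≠ 1 ∧ ξ ≠ z ∧ Ck ψ (g * (ψ ξ)⁻¹) := by
  obtain ⟨ξ, p⟩ := p
  by_cases n : ξ = 1 ∨ ξ = z
  · refine .inl ?_
    rcases n with rfl | rfl
    exacts [by simpa using p, by simpa [M.zd] using p.mul (M.ck U)]
  push Not at n
  refine .inr ⟨ξ, (M.cen U (Ac.ck ?_)).resolve_right (U.nsq ξ), n.1, n.2, p⟩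
  have := (Ac.of p).mul (.of p)
  rw [g2, ← map_mul] at this
  rw [← M.uq this (Ck.ac fun _ => .one_left _)]
  exact .inn ψ _

/-- an outer involution `e` has conjugates that are inner for `e` -/
theorem od (M' : Mo z e ψ') (c : Commute d e) (n : ¬ Ig ψ e) : ∃ x y, IsConj e x ∧ IsConj e y ∧ IsConj e (e * (x * y)) ∧
    Commute e x ∧ Commute e y ∧ x ≠ e ∧ y ≠ e ∧ y ≠ x ∧ Commute x y ∧ Ig ψ' x ∧ Ig ψ' y := by
  obtain ⟨α, a⟩ := M.act e c
  have e2 := M'.sq U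
  have α2 : α * α = 1 := M.uq (a.mul a) (e2 ▸ Ck.ac fun _ => .one_left _)
  obtain ⟨y, m, k, p, q, r⟩ := (U.out α α2 (mt (M.ig a).2 n)).1
  have y2 := U.t0.prim.sq m
  have fx : ∀ {w}, α w = w → Commute e (ψ w) := fun {w} f => mul_inv_eq_iff_eq_mul.1 ((a w).symm.trans (congrArg ψ f))
  have ek := fx p
  have w2 : y * α y * (y * α y) = 1 := by rw [q.2.2.symm.mul_mul_mul_comm, y2, U.t0.prim.sq q.1, one_mul]
  have w1 : y * α y ≠ 1 := fun f => q.2.1 ((eq_inv_of_mul_eq_one_right f).trans (U.t0.prim.inv m))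
  have ew := fx (w := y * α y) (by rw [map_mul, ← MulAut.mul_apply _ α α, α2, q.2.2.eq]; rfl)
  have i : IsConj e (ψ (y * α y) * e) := isConj_iff.2 ⟨ψ y, by
    rw [map_mul, a, ← map_inv, U.t0.prim.inv m, inv_eq_of_mul_eq_one_right e2]; simp only [mul_assoc, e2, mul_one]⟩
  generalize y * α y = w at *
  have cj : ∀ w, ψ (k * w * k⁻¹) * e = ψ k * (ψ w * e) * (ψ k)⁻¹ := fun w => by
    rw [← conj_mul, ek.symm.mul_inv_cancel, map_mul, map_mul, map_inv]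
  have x1 : ψ w * e ≠ e := fun f => w1 (M.inj ((mul_eq_right.1 f).trans (map_one ψ).symm))
  have ex := ew.mul_right (.refl e)
  have ex' : ∀ {x}, Commute e x → Commute e (ψ k * x * (ψ k)⁻¹) := fun f => (ek.mul_right f).mul_right ek.inv_right
  have ew' : Commute e (ψ (k * w * k⁻¹)) := by simpa using ex' ew
  have p3 : e * (ψ w * e * (ψ k * (ψ w * e) * (ψ k)⁻¹)) = ψ k * (ψ k * (ψ w * e) * (ψ k)⁻¹) * (ψ k)⁻¹ := by
    rw [← cj, ← cj, ← r, map_mul ψ w, ew'.mul_mul_mul_comm, e2, mul_one, (ew.mul_right ew').eq]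
  have x2 : ∀ g, g * (ψ w * e) * g⁻¹ * (g * (ψ w * e) * g⁻¹) = 1 := fun g => by
    rw [conj_mul, ew.mul_mul_mul_comm, e2, ← map_mul, w2]; simp
  have x3 := x2 (ψ k * ψ k)
  have x4 := x2 (ψ k)
  have x5 := x2 1
  simp only [one_mul, inv_one, mul_one] at x5
  have I1 : Ig ψ' (ψ w * e) := by_contra fun f => f (by
    have := M'.ig_mul' (M'.ck U).ig (M'.ig_mul U ex (ex' ex) f fun o => f (by simpa [mul_assoc] using M'.ig_cj ek.inv_right o))
    rw [p3] at this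
    simpa [mul_assoc] using M'.ig_cj (ek.mul_right ek).inv_right this)
  generalize ψ w * e = x at *
  rw [show ψ k * ψ k * x * (ψ k * ψ k)⁻¹ = ψ k * (ψ k * x * (ψ k)⁻¹) * (ψ k)⁻¹ by group, ← p3] at x3
  refine ⟨x, _, i, i.trans (isConj_cj (ψ k) x), p3 ▸ (i.trans (isConj_cj _ _)).trans (isConj_cj _ _), ex, ex' ex, x1,
    fun f => x1 (conj_injective (ψ k) (f.trans ek.symm.mul_inv_cancel.symm)), fun f => x1 ?_, ?_, I1, M'.ig_cj ek I1⟩
  · rw [f, f, x5, mul_one] at p3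
    exact p3.symm
  · rw [(ex.mul_right (ex' ex)).symm.mul_mul_mul_comm, e2, one_mul] at x3
    exact (eq_inv_of_mul_eq_one_left x3).trans (by rw [mul_inv_rev, inv_eq_of_mul_eq_one_right x5, inv_eq_of_mul_eq_one_right x4])

end Mo

/-- two commuting involutions -/
structure Pq (d : G) (ψ : J →* G) (e : G) (ψ' : J →* G) : Prop where
  c : Commute d e
  ti : ∀ x, Ck ψ x → Ck ψ' x → x * x = 1 → x = 1
  cz : ∀ x, Ck ψ' x → x * x = 1 → x ≠ 1 → ∀ g, Commute x g → Commute e g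

namespace Pq

variable (P : Pq d ψ e ψ') (M : Mo z d ψ) (M' : Mo z e ψ') (U : Fu z Y)
include P M M' U

theorem il (p : Ck ψ' x) (x2 : x * x = 1) (x1 : x ≠ 1) (n : Ig ψ x) : x = e := by
  obtain ⟨ξ, a, b, c, f⟩ := (M.inv U n x2).resolve_left fun f => x1 (P.ti x f p x2)
  obtain ⟨α, o⟩ := M.act e P.c
  rcases U.k3 ξ a b c α fun c q => M.inj ((o c).trans (P.cz x p x2 x1 _ (by
    simpa using (f c).mul_left (q.symm.map ψ))).mul_inv_cancel) with rfl | rfl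
  · exact absurd (P.ti e o.ck (M'.ck U) (M'.sq U)) (M'.ne U)
  · refine (mul_inv_eq_one.1 (P.ti _ (Ac.ck (by simpa using o.mul (Ac.of f).inv)) ((M'.ck U).mul p.inv) ?_)).symm
    rw [(M'.dk p).inv_right.symm.mul_mul_mul_comm, M'.sq U, one_mul, ← mul_inv_rev, x2, inv_one]

theorem two (p : Ck ψ' k) (c : Commute d k) (h : k * k = 1 ∨ k * k = e) : k = 1 ∨ k = e := by
  by_contra! n
  have ek := M'.dk p
  have nu : Ig ψ e := by
    rcases h with h | h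
    · by_contra q
      exact n.1 (mul_eq_right.1 (P.il M M' U (p.mul (M'.ck U)) (by rw [ek.mul_mul_mul_comm, h, M'.sq U, one_mul])
        (fun f => n.2 ((eq_inv_of_mul_eq_one_left f).trans (inv_eq_of_mul_eq_one_right (M'.sq U))))
        (M.ig_mul U c P.c (fun f => n.2 (P.il M M' U p h n.1 f)) q)))
    · exact h ▸ M.ig_sq U c
  have ne : ¬ Ck ψ e := fun f => M'.ne U (P.ti e f (M'.ck U) (M'.sq U))
  obtain ⟨ξ, a, b, c', f⟩ := (M.inv U nu (M'.sq U)).resolve_left ne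
  obtain ⟨α, o⟩ := M.act k c
  have ce : ∀ {c}, Commute c ξ → Commute e (ψ c) := fun {c} q => by simpa using (f c).mul_left (q.symm.map ψ)
  obtain ⟨h1, h2⟩ := U.fix ξ a b c' ((centralizer (Set.range ψ')).comap ψ)
    (fun c q n m => Set.forall_mem_range.2 fun x => by simpa using (M'.ck_cj (ce q) (fun x => (m _ ⟨x, rfl⟩).symm) x).symm.eq)
    (fun n m n2 => or_iff_not_imp_left.2 fun n1 => by
      have := P.il M M' U (x := ψ n) (fun x => (m _ ⟨x, rfl⟩).symm) (by rw [← map_mul, n2, map_one]) (mt (map_eq_one_iff _ M.inj).1 n1) (.of ψ n)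
      rw [← this, ← map_inv, ← map_mul] at f
      exact (M.cen U f).imp mul_inv_eq_one.1 mul_inv_eq_iff_eq_mul.1)
    α fun y m q => Set.forall_mem_range.2 fun x => by
      have := ((M'.ck_cj (ce q) p).mul p.inv x).symm.eq
      rw [← map_inv, U.t0.prim.inv m] at this
      simpa only [map_mul, o y, mul_assoc] using this
  rcases h with h | h
  · exact n.2 (P.il M M' U p h n.1 ((M.ig o).2 h1))
  · exact ne (h ▸ (h2 ▸ o.mul o : Ac ψ _ 1).ck)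

end Pq

theorem Mo.cen_two [Finite G] (M : Mo z d ψ) (U : Fu z Y) (ht : ∀ x g, Ck ψ x → x * x = 1 → x ≠ 1 → Ck ψ (g * x * g⁻¹) → Commute d g)
    (c : Commute d (g * d * g⁻¹)) (n : g * d * g⁻¹ ≠ d) (hO : centralizerPPrimeCore 2 d = ⊥) :
    (∀ k, Ck ψ k → k = 1 ∨ k = d) ∧ ∃ ξ, ξ ≠ z ∧ IsConj d (ψ ξ) := by
  obtain ⟨g, c, n, h⟩ : ∃ g, Commute d (g * d * g⁻¹) ∧ g * d * g⁻¹ ≠ d ∧ Ig ψ (g * d * g⁻¹) := by
    by_cases h : Ig ψ (g * d * g⁻¹)
    · exact ⟨g, c, n, h⟩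
    obtain ⟨x, -, i, -, -, p, -, q, -, -, -, r, -⟩ := M.od U (M.cj g) c h
    obtain ⟨x, rfl⟩ := (conj g).surjective x
    obtain ⟨l, rfl⟩ := isConj_iff.1 (((isConj_cj g d).trans i).trans (isConj_cj g x).symm)
    exact ⟨l, (commute_conj_iff _ _ _).1 p, fun f => q (by rw [f]; rfl), ig_cψ.1 r⟩
  have M' := M.cj g
  have P : Pq (g * d * g⁻¹) (cψ g ψ) d ψ := ⟨c.symm, fun x h1 h2 x2 => by_contra fun x1 => by
      obtain ⟨x, rfl⟩ := (conj g).surjective x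
      exact n (ht x g (ck_cψ.1 h1) (by simpa [mul_assoc] using congrArg (fun z => g⁻¹ * z * g) x2) (by simpa using x1)
        h2).symm.mul_inv_cancel,
    fun x hx x2 x1 k e => ht x k hx x2 x1 (by rwa [e.symm.mul_inv_cancel])⟩
  obtain ⟨ξ, a, -, b, f⟩ := (M.inv U h (M'.sq U)).resolve_left fun f => M'.ne U (P.ti _ (M'.ck U) f (M'.sq U))
  obtain ⟨ξ, m⟩ : ∃ ξ, ψ ξ = g * d * g⁻¹ := by
    generalize g * d * g⁻¹ = u at *
    have q := f ξ
    have q' : Commute u (u * (ψ ξ)⁻¹) := by simpa using ((Commute.refl (u * (ψ ξ)⁻¹)).mul_left q.symm)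
    rcases P.two M' M U f q' (Or.inl (by
      have := M'.sq U
      rwa [← inv_mul_cancel_right u (ψ ξ), q.symm.mul_mul_mul_comm, ← map_mul, a, map_one, mul_one] at this)) with e | e
    exacts [⟨ξ, (mul_inv_eq_one.1 e).symm⟩, ⟨z * ξ, by rw [map_mul, M.zd, mul_inv_eq_iff_eq_mul.1 e]⟩]
  have k : ∀ {k}, k ∈ centralizer (Set.range ψ) ↔ Ck ψ k := ⟨fun m x => (m _ ⟨x, rfl⟩).symm, fun m => Set.forall_mem_range.2 fun x => (m x).symm⟩
  exact ⟨fun _ hk => two_of_bal (K := centralizer (Set.range ψ)) (M.sq U) (M.ne U) (k.2 (M.ck U))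
    (fun _ o => mem_centralizer_singleton_iff.2 (M.dk (k.1 o)).symm)
    (fun _ o => mem_normalizer_fintype fun x p => k.2 (M.ck_cj (mem_centralizer_singleton_iff.1 o).symm (k.1 p)))
    (fun _ o => P.two M' M U (k.1 o) (m ▸ (k.1 o ξ).symm)) hO _ (k.2 hk), ξ, fun f => n (by rw [← m, f, M.zd]), m ▸ isConj_cj g d⟩

end Cfsg.Lib.U6S
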